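import Cfsg.Agent.Lib.Helper24.DetSum
import Cfsg.Agent.Lib.Helper24.CharInt
import Cfsg.Agent.Lib.Helper24.BlockUtil
import Cfsg.Agent.S0178

/-!
# Faithful characters of small degree in the principal block of a perfect group
-/

set_option autoImplicit false
set_option linter.unusedSectionVars false

namespace Cfsg.Agent.Lib.Helper24

open Cfsg Cfsg.Agent.Lib.Helper2 Cfsg.Agent.Lib.Helper6 Cfsg.Agent.Lib.Helper13
open scoped ComplexConjugate Classical

attribute [local instance] irrFintype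

theorem irr_one_eq_one_of_comm {A : Type*} [Group A] [Finite A] (hA : ∀ x y : A, x * y = y * x)
    {μ : A → ℂ} (hμ : IsIrrCharacter A μ) : μ 1 = 1 := by
  have h0 := irr_one_ne_zero hμ
  obtain ⟨n, ρ, hρ, rfl⟩ := hμ
  have h1 := Cfsg.Agent.S0178.result ρ ⊤ (fun a _ b _ => hA a b)
  rw [Subgroup.index_top] at h1
  rw [Representation.char_one] at h0 ⊢
  have h2 : Module.finrank ℂ (Fin n → ℂ) ≠ 0 := by
    intro h; apply h0; rw [h]; simp
  have h3 : Module.finrank ℂ (Fin n → ℂ) = 1 := by omega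
  rw [h3]; simp

section

variable {G : Type*} [Group G] [Fintype G] {M : Ideal AlgInt} {p : ℕ}

theorem degree_sub_memLocalIdeal (hM : IsPModular p M) {χ : IrrCharacter G}
    (hχ : χ ∈ principalBlock M G) {h : G}
    (hh : ¬ p ∣ (Subgroup.centralizer ({h} : Set G)).index) :
    MemLocalIdeal M ((χ : G → ℂ) 1 - (χ : G → ℂ) h) := by
  have := IsPModular.isPrime hM
  have h1 : MemLocalIdeal M (centralChar (fun _ : G => (1 : ℂ)) h - centralChar (χ : G → ℂ) h) :=
    hχ h
  have h2 := MemLocalIdeal.mul_left (MemLocalRing.mul (memLocalRing_inv_natCast hM hh)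
    (memLocalRing_of_isIntegral (irr_isIntegral χ.2 1))) h1
  convert h2 using 1
  unfold centralChar
  have hn : ((Subgroup.centralizer ({h} : Set G)).index : ℂ) ≠ 0 :=
    Nat.cast_ne_zero.mpr Subgroup.index_ne_zero_of_finite
  have h0 := irr_one_ne_zero χ.2
  field_simp

theorem dvd_mult_of_principal (hM : IsPModular p M) {χ : IrrCharacter G}
    (hχ : χ ∈ principalBlock M G) (X : Subgroup G) (hX : ¬ p ∣ Nat.card X)
    (hXc : ∀ h ∈ X, ¬ p ∣ (Subgroup.centralizer ({h} : Set G)).index)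
    (θ : IrrCharacter X) (hθ : θ ≠ oneIrr X) (m : ℕ)
    (hm : classInner (fun h : X => (χ : G → ℂ) h) (θ : X → ℂ) = m) : p ∣ m := by
  have := IsPModular.isPrime hM
  rw [← memLocalIdeal_natCast_iff hM, ← hm]
  have h0 : classInner (fun _ : X => (1 : ℂ)) (θ : X → ℂ) = 0 := by
    rw [classInner_irr isIrrCharacter_one θ.2, if_neg]
    intro h
    exact hθ (Subtype.ext h.symm)
  have h1 : classInner (fun h : X => (χ : G → ℂ) h) (θ : X → ℂ) =
      (Nat.card X : ℂ)⁻¹ * ∑ h : X, ((χ : G → ℂ) 1 - (χ : G → ℂ) h) * (- conj ((θ : X → ℂ) h)) := by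
    have h2 : classInner (fun h : X => (χ : G → ℂ) h) (θ : X → ℂ) =
        classInner (fun h : X => (χ : G → ℂ) h) (θ : X → ℂ) -
          (χ : G → ℂ) 1 * classInner (fun _ : X => (1 : ℂ)) (θ : X → ℂ) := by
      rw [h0, mul_zero, sub_zero]
    rw [h2]
    unfold classInner
    rw [mul_left_comm, ← mul_sub, Finset.mul_sum, ← Finset.sum_sub_distrib]
    congr 1
    apply Finset.sum_congr rfl
    intro h _
    ring
  rw [h1]
  apply MemLocalIdeal.mul_left (memLocalRing_inv_natCast hM hX)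
  refine MemLocalIdeal.sum _ fun h _ => ?_
  apply MemLocalIdeal.mul_right (degree_sub_memLocalIdeal hM hχ (hXc h h.2))
  exact memLocalRing_of_isIntegral (isIntegral_conj (irr_isIntegral θ.2 h)).neg

theorem eq_one_of_mem_centralizer_sylow [Fact p.Prime] (hM : IsPModular p M)
    (hperf : commutator G = ⊤) (P : Sylow p G) {χ : IrrCharacter G}
    (hχ : χ ∈ principalBlock M G) (hfaith : ∀ g : G, (χ : G → ℂ) g = (χ : G → ℂ) 1 → g = 1)
    (hdeg : charDegree (χ : G → ℂ) < 2 * p) {y : G}
    (hy : y ∈ Subgroup.centralizer ((P : Subgroup G) : Set G)) (hyp : ¬ p ∣ orderOf y) : y = 1 := by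
  have hp : p.Prime := hM.1
  obtain ⟨X, hXdef⟩ : ∃ X : Subgroup G, X = Subgroup.zpowers y := ⟨_, rfl⟩
  have hXcard : Nat.card X = orderOf y := by rw [hXdef, Nat.card_zpowers]
  have hXle : X ≤ Subgroup.centralizer ((P : Subgroup G) : Set G) := by
    rw [hXdef, Subgroup.zpowers_le]
    exact hy
  have hXc : ∀ h ∈ X, ¬ p ∣ (Subgroup.centralizer ({h} : Set G)).index := by
    intro h hh hdvd
    have h1 : (P : Subgroup G) ≤ Subgroup.centralizer ({h} : Set G) := by
      intro u hu
      rw [Subgroup.mem_centralizer_singleton_iff]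
      exact ((Subgroup.mem_centralizer_iff.mp (hXle hh)) u hu)
    exact P.not_dvd_index (dvd_trans hdvd (Subgroup.index_dvd_of_le h1))
  have hcomm : ∀ a b : X, a * b = b * a := by
    subst hXdef
    intro a b
    obtain ⟨i, hi⟩ := Subgroup.mem_zpowers_iff.mp a.2
    obtain ⟨j, hj⟩ := Subgroup.mem_zpowers_iff.mp b.2
    apply Subtype.ext
    rw [Subgroup.coe_mul, Subgroup.coe_mul, ← hi, ← hj, ← zpow_add, ← zpow_add, add_comm]
  have hchar : IsCharacter X (fun h : X => (χ : G → ℂ) (X.subtype h)) :=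
    IsCharacter.comp_hom X.subtype (IsIrrCharacter.isCharacter χ.2)
  choose n hn using fun ψ : IrrCharacter X =>
    IsCharacter.classInner_nat hchar (IsIrrCharacter.isCharacter ψ.2)
  have hsum : (fun h : X => (χ : G → ℂ) (X.subtype h)) =
      ∑ ψ : IrrCharacter X, (n ψ : ℂ) • (ψ : X → ℂ) := by
    conv_lhs => rw [classFunction_eq_sum (IsCharacter.isClassFunction hchar)]
    simp_rw [hn]
  have hdvd : ∀ θ : IrrCharacter X, θ ≠ oneIrr X → p ∣ n θ := fun θ hθ =>
    dvd_mult_of_principal hM hχ X (by rwa [hXcard]) hXc θ hθ (n θ) (hn θ)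
  have hlin : ∀ θ : IrrCharacter X, (θ : X → ℂ) 1 = 1 := fun θ => irr_one_eq_one_of_comm hcomm θ.2
  have hval : ∀ h : X, (χ : G → ℂ) h = ∑ ψ : IrrCharacter X, (n ψ : ℂ) * (ψ : X → ℂ) h := by
    intro h
    have := congrFun hsum h
    rw [Finset.sum_apply] at this
    simpa using this
  have hdegsum : charDegree (χ : G → ℂ) = ∑ θ : IrrCharacter X, n θ := by
    have h1 := hval 1
    simp only [hlin, mul_one] at h1
    have h2 : ((charDegree (χ : G → ℂ) : ℕ) : ℂ) = ((∑ θ : IrrCharacter X, n θ : ℕ) : ℂ) := by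
      rw [charDegree_cast (IsIrrCharacter.isCharacter χ.2), Nat.cast_sum]
      exact h1
    exact_mod_cast h2
  obtain ⟨y', hy'⟩ : ∃ y' : X, (y' : G) = y := ⟨⟨y, by rw [hXdef]; exact Subgroup.mem_zpowers y⟩, rfl⟩
  have hdet : ∏ θ : IrrCharacter X, ((θ : X → ℂ) y') ^ (n θ) = 1 := by
    have h1 : detChar (fun h : X => (χ : G → ℂ) (X.subtype h)) y' = 1 := by
      rw [detChar_comp_hom X.subtype (IsIrrCharacter.isCharacter χ.2)]
      exact detChar_eq_one_of_perfect hperf (IsIrrCharacter.isCharacter χ.2) _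
    rw [hsum, detChar_sum _ (fun ψ _ => IsCharacter.nsmul _ (IsIrrCharacter.isCharacter ψ.2)),
      Finset.prod_apply] at h1
    rw [← h1]
    apply Finset.prod_congr rfl
    intro θ _
    rw [detChar_nsmul _ (IsIrrCharacter.isCharacter θ.2),
      detChar_of_linear (IsIrrCharacter.isCharacter θ.2) (hlin θ), Pi.pow_apply]
  by_cases hall : ∀ θ : IrrCharacter X, θ ≠ oneIrr X → n θ = 0
  · apply hfaith
    have h1 := hval y'
    have h2 := hval 1
    rw [Finset.sum_eq_single (oneIrr X) (fun b _ hb => by rw [hall b hb]; simp)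
      (fun h => absurd (Finset.mem_univ _) h)] at h1 h2
    rw [hy'] at h1
    rw [h1]
    exact h2.symm
  · exfalso
    push Not at hall
    obtain ⟨θ₀, hθ₀, hn₀⟩ := hall
    have hle : n θ₀ ≤ ∑ θ : IrrCharacter X, n θ :=
      Finset.single_le_sum (fun _ _ => Nat.zero_le _) (Finset.mem_univ θ₀)
    have hn₀p : n θ₀ = p := by
      obtain ⟨c, hc⟩ := hdvd θ₀ hθ₀
      have hc1 : c = 1 := by
        rcases Nat.lt_or_ge c 2 with h | h
        · interval_cases c
          · simp at hc; exact absurd hc hn₀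
          · rfl
        · exfalso
          have : 2 * p ≤ p * c := by nlinarith
          omega
      rw [hc, hc1, mul_one]
    have hoth : ∀ θ : IrrCharacter X, θ ≠ oneIrr X → θ ≠ θ₀ → n θ = 0 := by
      intro θ hθ hne
      by_contra hcon
      have h1 : p ≤ n θ := Nat.le_of_dvd (Nat.pos_of_ne_zero hcon) (hdvd θ hθ)
      have h2 : n θ + n θ₀ ≤ ∑ θ : IrrCharacter X, n θ := by
        have := Finset.sum_le_sum_of_subset (f := n) (Finset.subset_univ {θ, θ₀})
        rwa [Finset.sum_pair hne] at this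
      omega
    rw [Finset.prod_eq_single θ₀ (fun b _ hb => by
      by_cases hb1 : b = oneIrr X
      · rw [hb1, oneIrr_apply, one_pow]
      · rw [hoth b hb1 hb, pow_zero]) (fun h => absurd (Finset.mem_univ _) h), hn₀p] at hdet
    obtain ⟨lam, hlam⟩ := exists_hom_of_degree_one (IsIrrCharacter.isCharacter θ₀.2) (hlin θ₀)
    have hl1 : lam y' ^ p = 1 := by
      rw [hlam] at hdet
      apply Units.ext
      rw [Units.val_pow_eq_pow_val]
      exact hdet
    have hl2 : lam y' ^ orderOf y = 1 := by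
      rw [← map_pow]
      have : y' ^ orderOf y = 1 := by
        apply Subtype.ext
        rw [Subgroup.coe_pow, hy', pow_orderOf_eq_one]
        rfl
      rw [this, map_one]
    have hl3 : lam y' = 1 := by
      rw [← orderOf_eq_one_iff, ← Nat.dvd_one]
      have hco : Nat.Coprime p (orderOf y) := (Nat.Prime.coprime_iff_not_dvd hp).mpr hyp
      rw [← hco]
      exact Nat.dvd_gcd (orderOf_dvd_of_pow_eq_one hl1) (orderOf_dvd_of_pow_eq_one hl2)
    apply hθ₀
    apply Subtype.ext
    rw [hlam]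
    funext g
    have hg : (g : G) ∈ Subgroup.zpowers y := by rw [← hXdef]; exact g.2
    obtain ⟨k, hk⟩ := Subgroup.mem_zpowers_iff.mp hg
    have hgk : g = y' ^ k := by
      apply Subtype.ext
      rw [Subgroup.coe_zpow, hy', hk]
    rw [hgk, map_zpow, hl3, one_zpow]
    rfl

end

end Cfsg.Agent.Lib.Helper24
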