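import Mathlib

/-!
# Cyclic `p`-groups: elementary facts
-/

set_option autoImplicit false

namespace Cfsg.Agent.Lib.Helper24

section cyc

variable {G : Type*} [Group G]

/-- in a finite cyclic group, `orderOf q ∣ orderOf r` implies `q ∈ ⟨r⟩` -/
theorem mem_zpowers_of_orderOf_dvd {D : Type*} [Group D] [Finite D] [IsCyclic D] {q r : D}
    (h : orderOf q ∣ orderOf r) : q ∈ Subgroup.zpowers r := by
  classical
  cases nonempty_fintype D
  have hr : 0 < orderOf r := orderOf_pos r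
  have h1 := IsCyclic.card_pow_eq_one_le (α := D) hr
  have h2 : (Finset.univ.filter fun a : D => a ∈ Subgroup.zpowers r) ⊆
      Finset.univ.filter fun a : D => a ^ orderOf r = 1 := by
    intro a ha
    simp only [Finset.mem_filter, Finset.mem_univ, true_and] at ha ⊢
    obtain ⟨k, rfl⟩ := ha
    show (r ^ k) ^ orderOf r = 1
    rw [← zpow_natCast, ← zpow_mul, mul_comm, zpow_mul, zpow_natCast, pow_orderOf_eq_one, one_zpow]
  have h3 : (Finset.univ.filter fun a : D => a ∈ Subgroup.zpowers r).card = orderOf r := by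
    rw [← Nat.card_zpowers, Nat.card_eq_fintype_card, Fintype.card_subtype]
  have h4 := Finset.eq_of_subset_of_card_le h2 (by rw [h3]; exact h1)
  have h5 : q ∈ Finset.univ.filter fun a : D => a ^ orderOf r = 1 := by
    simp only [Finset.mem_filter, Finset.mem_univ, true_and]
    exact orderOf_dvd_iff_pow_eq_one.mp h
  rw [← h4] at h5
  simpa using h5

theorem mem_zpowers_of_orderOf_dvd_sub [Finite G] {D : Subgroup G} (hD : IsCyclic D) {q r : G}
    (hq : q ∈ D) (hr : r ∈ D) (h : orderOf q ∣ orderOf r) : q ∈ Subgroup.zpowers r := by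
  have h1 : (⟨q, hq⟩ : D) ∈ Subgroup.zpowers (⟨r, hr⟩ : D) := by
    apply mem_zpowers_of_orderOf_dvd
    rwa [Subgroup.orderOf_mk, Subgroup.orderOf_mk]
  obtain ⟨k, hk⟩ := h1
  exact ⟨k, congrArg Subtype.val hk⟩

theorem orderOf_conj' (t y : G) : orderOf (t * y * t⁻¹) = orderOf y := by
  have := (MulAut.conj t).orderOf_eq y
  simpa using this

/-- subgroups of a cyclic subgroup are normalized by its normalizer -/
theorem mem_normalizer_of_le_cyclic [Finite G] {P Q : Subgroup G} (hP : IsCyclic P) (hQP : Q ≤ P)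
    {t : G} (ht : t ∈ Subgroup.normalizer (P : Set G)) : t ∈ Subgroup.normalizer (Q : Set G) := by
  have hQc : IsCyclic Q := Subgroup.isCyclic_of_le hQP
  obtain ⟨r, hr⟩ := (Subgroup.isCyclic_iff_exists_zpowers_eq_top Q).mp hQc
  have hrQ : r ∈ Q := hr ▸ Subgroup.mem_zpowers r
  have key : ∀ s ∈ Subgroup.normalizer (P : Set G), ∀ y ∈ Q, s * y * s⁻¹ ∈ Q := by
    intro s hs y hy
    rw [← hr]
    apply mem_zpowers_of_orderOf_dvd_sub hP ((Subgroup.mem_normalizer_iff.mp hs y).mp (hQP hy))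
      (hQP hrQ)
    rw [orderOf_conj']
    exact orderOf_dvd_of_mem_zpowers (hr ▸ hy)
  rw [Subgroup.mem_normalizer_iff]
  intro y
  refine ⟨key t ht y, fun h => ?_⟩
  have h1 := key t⁻¹ (Subgroup.inv_mem _ ht) _ h
  have h2 : t⁻¹ * (t * y * t⁻¹) * t⁻¹⁻¹ = y := by group
  rwa [h2] at h1

theorem exists_orderOf_eq_pow {p : ℕ} [hp : Fact p.Prime] {D : Subgroup G} (hD : IsPGroup p D)
    {q : G} (hq : q ∈ D) : ∃ a : ℕ, orderOf q = p ^ a := by
  obtain ⟨k, hk⟩ := hD ⟨q, hq⟩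
  have h1 : q ^ p ^ k = 1 := congrArg Subtype.val hk
  obtain ⟨a, -, ha⟩ := (Nat.dvd_prime_pow hp.out).mp (orderOf_dvd_of_pow_eq_one h1)
  exact ⟨a, ha⟩

/-- the subgroups of a cyclic `p`-group form a chain -/
theorem mem_or_le_zpowers_of_cyclic [Finite G] {p : ℕ} [Fact p.Prime] {D R : Subgroup G}
    (hD : IsPGroup p D) (hcyc : IsCyclic D) (hRD : R ≤ D) {q : G} (hq : q ∈ D) :
    q ∈ R ∨ R ≤ Subgroup.zpowers q := by
  have hRc : IsCyclic R := Subgroup.isCyclic_of_le hRD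
  obtain ⟨r, hr⟩ := (Subgroup.isCyclic_iff_exists_zpowers_eq_top R).mp hRc
  have hrR : r ∈ R := hr ▸ Subgroup.mem_zpowers r
  obtain ⟨a, ha⟩ := exists_orderOf_eq_pow hD (hRD hrR)
  obtain ⟨b, hb⟩ := exists_orderOf_eq_pow hD hq
  rcases le_total b a with h | h
  · left
    rw [← hr]
    apply mem_zpowers_of_orderOf_dvd_sub hcyc hq (hRD hrR)
    rw [ha, hb]
    exact pow_dvd_pow p h
  · right
    rw [← hr, Subgroup.zpowers_le]
    apply mem_zpowers_of_orderOf_dvd_sub hcyc (hRD hrR) hq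
    rw [ha, hb]
    exact pow_dvd_pow p h

theorem conj_pow_eq_pow {x g : G} {k : ℕ} (h : x * g * x⁻¹ = g ^ k) (j : ℕ) :
    x ^ j * g * (x ^ j)⁻¹ = g ^ (k ^ j) := by
  induction j with
  | zero => simp
  | succ j ih =>
    have e1 : x ^ (j + 1) * g * (x ^ (j + 1))⁻¹ = x * (x ^ j * g * (x ^ j)⁻¹) * x⁻¹ := by
      rw [pow_succ']; group
    rw [e1, ih, ← conj_pow, h, ← pow_mul, pow_succ']

/-- an element normalizing a cyclic `p`-group and centralizing a nontrivial element of it induces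
an automorphism of `p`-power order -/
theorem exists_pow_mem_centralizer_of_cyclic {p : ℕ} [hp : Fact p.Prime] {P : Subgroup G}
    (hP : IsPGroup p P) (hcyc : IsCyclic P) {x q : G}
    (hx : x ∈ Subgroup.normalizer (P : Set G)) (hq : q ∈ P) (hq1 : q ≠ 1) (hxq : x * q = q * x) :
    ∃ n : ℕ, x ^ (p ^ n) ∈ Subgroup.centralizer (P : Set G) := by
  obtain ⟨g, hg⟩ := (Subgroup.isCyclic_iff_exists_zpowers_eq_top P).mp hcyc
  have hgP : g ∈ P := hg ▸ Subgroup.mem_zpowers g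
  obtain ⟨n, hn⟩ := exists_orderOf_eq_pow hP hgP
  have hfin : IsOfFinOrder g := orderOf_pos_iff.mp (hn ▸ pow_pos hp.out.pos n)
  have h1 : x * g * x⁻¹ ∈ Subgroup.zpowers g := hg ▸ (Subgroup.mem_normalizer_iff.mp hx g).mp hgP
  obtain ⟨k, hk⟩ := Submonoid.mem_powers_iff _ _ |>.mp (hfin.mem_powers_iff_mem_zpowers.mpr h1)
  obtain ⟨i, hi⟩ := Submonoid.mem_powers_iff _ _ |>.mp
    (hfin.mem_powers_iff_mem_zpowers.mpr (hg ▸ hq : q ∈ Subgroup.zpowers g))
  have h2 : g ^ (k * i) = g ^ i := by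
    rw [pow_mul, hk, conj_pow, hi, hxq]
    group
  have h3 : (k * i) ≡ i [MOD p ^ n] := by
    rw [← hn]
    exact pow_eq_pow_iff_modEq.mp h2
  have h4 : ¬ p ^ n ∣ i := by
    intro hd
    apply hq1
    rw [← hi]
    exact orderOf_dvd_iff_pow_eq_one.mp (hn ▸ hd)
  have h5 : ((p ^ n : ℕ) : ℤ) ∣ (i : ℤ) * (1 - (k : ℤ)) := by
    have := (Nat.modEq_iff_dvd).mp h3
    have e : ((i : ℕ) : ℤ) - ((k * i : ℕ) : ℤ) = (i : ℤ) * (1 - (k : ℤ)) := by
      push_cast; ring
    rwa [e] at this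
  have hp' : Prime (p : ℤ) := Nat.prime_iff_prime_int.mp hp.out
  have h6 : (p : ℤ) ∣ (k : ℤ) - 1 := by
    by_contra hcon
    have hcon' : ¬ (p : ℤ) ∣ 1 - (k : ℤ) := by
      intro hd
      apply hcon
      have := (dvd_neg (a := (p : ℤ))).mpr hd
      rwa [neg_sub] at this
    have hc : IsCoprime ((p : ℤ) ^ n) (1 - (k : ℤ)) :=
      IsCoprime.pow_left ((Prime.coprime_iff_not_dvd hp').mpr hcon')
    have h7 : ((p : ℤ) ^ n) ∣ (i : ℤ) := by
      apply hc.dvd_of_dvd_mul_right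
      have := h5
      push_cast at this
      exact this
    apply h4
    have h8 : ((p ^ n : ℕ) : ℤ) ∣ (i : ℤ) := by
      push_cast
      exact h7
    exact Int.natCast_dvd_natCast.mp h8
  have h7 := dvd_sub_pow_of_dvd_sub h6 n
  rw [one_pow] at h7
  have h8 : (1 : ℕ) ≡ k ^ p ^ n [MOD p ^ n] := by
    rw [Nat.modEq_iff_dvd]
    push_cast
    exact (pow_dvd_pow (p : ℤ) (Nat.le_succ n)).trans h7
  have h9 : g ^ (k ^ p ^ n) = g := by
    have := pow_eq_pow_iff_modEq.mpr (hn.symm ▸ h8 : (1 : ℕ) ≡ k ^ p ^ n [MOD orderOf g])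
    rw [pow_one] at this
    exact this.symm
  refine ⟨n, ?_⟩
  have h10 := conj_pow_eq_pow hk.symm (p ^ n)
  rw [h9] at h10
  have h11 : Commute (x ^ p ^ n) g := by
    show x ^ p ^ n * g = g * x ^ p ^ n
    calc x ^ p ^ n * g = x ^ p ^ n * g * (x ^ p ^ n)⁻¹ * x ^ p ^ n := by group
      _ = g * x ^ p ^ n := by rw [h10]
  rw [Subgroup.mem_centralizer_iff]
  intro y hy
  have hy' : y ∈ Subgroup.zpowers g := hg ▸ hy
  obtain ⟨z, rfl⟩ := hy'
  exact (h11.zpow_right z).eq.symm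

theorem mem_of_pow_mem_of_coprime (H : Subgroup G) {x : G} {a b : ℕ} (hab : Nat.Coprime a b)
    (ha : x ^ a ∈ H) (hb : x ^ b ∈ H) : x ∈ H := by
  have h := Nat.gcd_eq_gcd_ab a b
  rw [hab.gcd_eq_one] at h
  have e : x = (x ^ a) ^ (Nat.gcdA a b) * (x ^ b) ^ (Nat.gcdB a b) := by
    rw [← zpow_natCast x a, ← zpow_natCast x b, ← zpow_mul, ← zpow_mul, ← zpow_add, ← h]
    simp
  rw [e]
  exact H.mul_mem (H.zpow_mem ha _) (H.zpow_mem hb _)

end cyc

end Cfsg.Agent.Lib.Helper24
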