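import Mathlib
import Cfsg.Prelude.Def_Blocks
import Cfsg.Agent.Lib.Helper6.MajorSub5
import Cfsg.Agent.Lib.Helper6.Klein5
import Cfsg.Agent.Lib.Helper24.Cyc1
import Cfsg.Agent.S4669

/-!
# Blocks with cyclic defect groups and trivial inertial quotient
-/

set_option autoImplicit false
set_option linter.unusedSectionVars false

namespace Cfsg.Agent.Lib.Helper24

open Cfsg Cfsg.Agent.Lib.Helper2 Cfsg.Agent.Lib.Helper6 Cfsg.Agent.Lib.Helper23.Contrib
open Cfsg.Agent.Lib.Helper23.BrauerFeit Cfsg.Agent.Lib.Helper23.RegInner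
open Cfsg.Agent.Lib.Helper23.RealBlock Cfsg.Agent.Lib.Helper23.CycNorm Polynomial
open scoped ComplexConjugate Classical

attribute [local instance] irrFintype

variable {G : Type*} [Group G] [Fintype G] {p : ℕ} {M : Ideal AlgInt}

theorem blockRank_pos_of_nonempty (hp : p.Prime) {b : Set (IrrCharacter G)} (hb : b.Nonempty) :
    0 < blockRank p b := by
  obtain ⟨χ, hχ⟩ := hb
  unfold blockRank
  rw [Module.finrank_pos_iff_exists_ne_zero]
  refine ⟨⟨pRegularPart p (χ : G → ℂ), Submodule.subset_span ⟨χ, hχ, rfl⟩⟩, ?_⟩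
  intro h
  have h1 : pRegularPart p (χ : G → ℂ) = 0 := congrArg Subtype.val h
  have h2 := congrFun h1 1
  rw [pRegularPart_one hp] at h2
  exact irr_one_ne_zero χ.2 h2

theorem card_eq_sum_ite (B : Set (IrrCharacter G)) (c : ℝ) :
    ∑ χ : IrrCharacter G, (if χ ∈ B then c else 0) = (Nat.card B : ℝ) * c := by
  rw [← Finset.sum_filter, Finset.sum_const, ← Fintype.card_subtype, ← Nat.card_eq_fintype_card,
    nsmul_eq_mul]

/-- `k(B) ≤ p^d l(b)` for a major subsection `(x, b)`. -/
theorem card_le_pow_mul_blockRank [Fact p.Prime] (hM : IsPModular p M) {H : Subgroup G} {x : H}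
    (hx : IsCenOf p x) {f : Set (IrrCharacter H)} {B : Set (IrrCharacter G)}
    (hind : IsInducedBlock M H f B) (hq : blockDefect p f = blockDefect p B) :
    Nat.card B ≤ p ^ blockDefect p B * blockRank p f := by
  have hp : p.Prime := hM.1
  obtain ⟨k, hk⟩ := hx.pow
  have hK : (x : G) ^ (p ^ (k + 1)) = 1 := by
    rw [pow_succ, pow_mul, ← hk, pow_orderOf_eq_one, one_pow]
  obtain ⟨N, hN⟩ : ∃ N, N = p ^ (k + 1) := ⟨_, rfl⟩
  have hN0 : 0 < N := hN ▸ pow_pos hp.pos _
  have : NeZero N := ⟨hN0.ne'⟩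
  obtain ⟨ζ, hζ⟩ : ∃ ζ : ℂ, IsPrimitiveRoot ζ N := ⟨_, Complex.isPrimitiveRoot_exp N hN0.ne'⟩
  have hpoly : ∀ χ : IrrCharacter G, ∃ P : ℚ[X], χ ∈ B →
      ((∀ j : ℕ, Nat.Coprime j p → aeval (ζ ^ j) P =
        (p : ℂ) ^ blockDefect p f * mc p f (x ^ j) (χ : G → ℂ) (χ : G → ℂ) /
          (p : ℂ) ^ blockHeight p B (χ : G → ℂ)) ∧
      (Fintype.card (primitiveRoots N ℂ) : ℝ) ≤
        ∑ η : primitiveRoots N ℂ, (aeval (η : ℂ) P).re) := by
    intro χ
    by_cases hχ : χ ∈ B
    · subst hN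
      obtain ⟨P, hP⟩ := exists_poly hM hx hind hq hχ hK hζ
      exact ⟨P, fun _ => hP⟩
    · exact ⟨0, fun h => absurd h hχ⟩
  choose P hP using hpoly
  have hex : ∀ η : primitiveRoots N ℂ, ∃ j : ℕ, Nat.Coprime j p ∧ (η : ℂ) = ζ ^ j := by
    intro η
    have hη := (mem_primitiveRoots hN0).mp η.2
    obtain ⟨i, -, hi⟩ := hζ.eq_pow_of_pow_eq_one hη.pow_eq_one
    refine ⟨i, ?_, hi.symm⟩
    rw [← hi, hζ.pow_iff_coprime hN0, hN] at hη
    exact (Nat.coprime_pow_right_iff (Nat.succ_pos k) i p).mp hη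
  choose J hJ1 hJ2 using hex
  obtain ⟨mm, hmm⟩ : ∃ mm : ℕ → IrrCharacter G → ℝ, mm = fun (j : ℕ) (χ : IrrCharacter G) =>
      (mc p f (x ^ j) (χ : G → ℂ) (χ : G → ℂ)).re := ⟨_, rfl⟩
  have hmmc : ∀ (j : ℕ) (χ : IrrCharacter G),
      mc p f (x ^ j) (χ : G → ℂ) (χ : G → ℂ) = (mm j χ : ℂ) := by
    intro j χ
    rw [hmm]
    simp only
    rw [mc_self_eq, Complex.ofReal_re]
  have hmm0 : ∀ j χ, 0 ≤ mm j χ := by
    intro j χ
    rw [hmm]
    simp only
    rw [mc_self_eq, Complex.ofReal_re]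
    exact mc_self_nonneg _ _ _
  have hsum : ∀ j, Nat.Coprime j p →
      ∑ χ : IrrCharacter G, (if χ ∈ B then mm j χ else 0) = (blockRank p f : ℝ) := by
    intro j hj
    have h1 := sum_mc_diag hM (isCenOf_pow hp hx hj) hind
    have h2 : ((∑ χ : IrrCharacter G, (if χ ∈ B then mm j χ else 0) : ℝ) : ℂ) =
        ((blockRank p f : ℝ) : ℂ) := by
      push_cast
      rw [← h1]
      refine Finset.sum_congr rfl fun χ _ => ?_
      by_cases hχ : χ ∈ B
      · rw [if_pos hχ, Set.indicator_of_mem hχ, Pi.one_apply, one_mul, hmmc]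
      · rw [if_neg hχ, Set.indicator_of_notMem hχ, zero_mul, Complex.ofReal_zero]
    exact_mod_cast h2
  obtain ⟨d, hd⟩ : ∃ d, d = blockDefect p B := ⟨_, rfl⟩
  have hpr : (1 : ℝ) ≤ p := by exact_mod_cast hp.one_lt.le
  have hbound : ∀ χ : IrrCharacter G, χ ∈ B → (Fintype.card (primitiveRoots N ℂ) : ℝ) ≤
      ∑ η : primitiveRoots N ℂ, (p : ℝ) ^ d * mm (J η) χ := by
    intro χ hχ
    refine ((hP χ hχ).2).trans (Finset.sum_le_sum fun η _ => ?_)
    rw [hJ2 η, (hP χ hχ).1 _ (hJ1 η), re_pow_mul_div _ _ _ _ (hmmc _ _), hq, ← hd, hmmc,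
      Complex.ofReal_re]
    apply mul_le_mul_of_nonneg_right _ (hmm0 _ _)
    apply div_le_self (by positivity)
    exact one_le_pow₀ hpr
  have hφ : (0 : ℝ) < Fintype.card (primitiveRoots N ℂ) := by
    have : 0 < Fintype.card (primitiveRoots N ℂ) :=
      Fintype.card_pos_iff.mpr ⟨⟨ζ, (mem_primitiveRoots hN0).mpr hζ⟩⟩
    exact_mod_cast this
  have h1 : (Nat.card B : ℝ) * Fintype.card (primitiveRoots N ℂ) ≤
      ∑ χ : IrrCharacter G, (if χ ∈ B then
        ∑ η : primitiveRoots N ℂ, (p : ℝ) ^ d * mm (J η) χ else 0) := by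
    rw [← card_eq_sum_ite]
    refine Finset.sum_le_sum fun χ _ => ?_
    by_cases hχ : χ ∈ B
    · rw [if_pos hχ, if_pos hχ]
      exact hbound χ hχ
    · rw [if_neg hχ, if_neg hχ]
  have h2 : ∑ χ : IrrCharacter G, (if χ ∈ B then
        ∑ η : primitiveRoots N ℂ, (p : ℝ) ^ d * mm (J η) χ else 0) =
      Fintype.card (primitiveRoots N ℂ) * ((p : ℝ) ^ d * blockRank p f) := by
    have e1 : ∀ χ : IrrCharacter G, (if χ ∈ B then
        ∑ η : primitiveRoots N ℂ, (p : ℝ) ^ d * mm (J η) χ else 0) =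
        ∑ η : primitiveRoots N ℂ, (p : ℝ) ^ d * (if χ ∈ B then mm (J η) χ else 0) := by
      intro χ
      by_cases hχ : χ ∈ B
      · simp only [if_pos hχ]
      · simp only [if_neg hχ, mul_zero, Finset.sum_const_zero]
    rw [Finset.sum_congr rfl fun χ _ => e1 χ, Finset.sum_comm]
    have e2 : ∀ η : primitiveRoots N ℂ,
        ∑ χ : IrrCharacter G, (p : ℝ) ^ d * (if χ ∈ B then mm (J η) χ else 0) =
        (p : ℝ) ^ d * blockRank p f := by
      intro η
      rw [← Finset.mul_sum, hsum _ (hJ1 η)]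
    rw [Finset.sum_congr rfl fun η _ => e2 η, Finset.sum_const, Finset.card_univ, nsmul_eq_mul]
  rw [h2, mul_comm] at h1
  have h3 := le_of_mul_le_mul_left h1 hφ
  rw [← hd]
  exact_mod_cast h3

/-- Lower bound for `k(B)`: abelian defect group, trivial inertial quotient. -/
theorem blockRank_add_card_le [Fact p.Prime] (hM : IsPModular p M) {B : Set (IrrCharacter G)}
    {P : Subgroup G} {c : Set (IrrCharacter (cz P))} (hmax : IsMaximalBrauerPair p M B P c)
    (hab : P ≤ cz P)
    (hTC : ∀ t, t ∈ Subgroup.normalizer (P : Set G) → StabilizesBlock (cz P) c t → t ∈ cz P) :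
    blockRank p B + Nat.card P ≤ Nat.card B + 1 := by
  have := IsPModular.isPrime hM
  have hp : p.Prime := hM.1
  have hB : IsPBlock M B := hmax.1.2.1
  have hfam : ∀ Q : Subgroup G, ∃ f : Set (IrrCharacter (cz Q)),
      Q ≤ P → PLE p M ⟨Q, f⟩ ⟨P, c⟩ := by
    intro Q
    by_cases hQ : Q ≤ P
    · obtain ⟨f, hf⟩ := exists_PLE hM ⟨P, c⟩ hmax.1.1 _ Q hQ rfl
      exact ⟨f, fun _ => hf⟩
    · exact ⟨∅, fun h => absurd h hQ⟩
  choose fam hfam using hfam
  have hQD : ∀ w ∈ P, Subgroup.zpowers w ≤ P := fun w hw => Subgroup.zpowers_le.mpr hw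
  have hDQ : ∀ w ∈ P, P ≤ cz (Subgroup.zpowers w) := fun w hw y hy =>
    cen_le_centralizer_zpowers w (Subgroup.mem_centralizer_singleton_iff.mpr
      (Subgroup.mem_centralizer_iff.mp (hab hy) w hw).symm)
  have hle : ∀ w (hw : w ∈ P), SubpairLE p M (Subgroup.zpowers w) (fam _) P c :=
    fun w hw => hfam _ (hQD w hw)
  have hdata := fun w hw => major_data hM hmax (hle w hw) (hDQ w hw)
  have hcen : ∀ w ∈ P, IsCenOf p (cenElt' w) := fun w hw =>
    isCenOf_cenElt' (exists_orderOf_eq_pow hmax.1.1.1 hw)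
  obtain ⟨r, hr⟩ : ∃ r : IrrCharacter G → ℝ, r = fun χ : IrrCharacter G =>
      (Nat.card G : ℝ)⁻¹ * ∑ g : G, ‖regPart p (χ : G → ℂ) g‖ ^ 2 := ⟨_, rfl⟩
  have hr0 : ∀ χ, 0 ≤ r χ := fun χ => by
    rw [hr]
    exact classInner_self_nonneg _
  have hrc : ∀ χ : IrrCharacter G,
      classInner (regPart p (χ : G → ℂ)) (regPart p (χ : G → ℂ)) = (r χ : ℂ) := fun χ => by
    rw [hr]
    exact classInner_self_eq _
  obtain ⟨μ, hμ⟩ : ∃ μ : P → IrrCharacter G → ℝ, μ = fun (z : P) (χ : IrrCharacter G) =>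
      (mc p (fam (Subgroup.zpowers (z : G))) (cenElt' (z : G)) (χ : G → ℂ) (χ : G → ℂ)).re :=
    ⟨_, rfl⟩
  have hμc : ∀ (z : P) (χ : IrrCharacter G),
      mc p (fam (Subgroup.zpowers (z : G))) (cenElt' (z : G)) (χ : G → ℂ) (χ : G → ℂ) =
        (μ z χ : ℂ) := by
    intro z χ
    rw [hμ]
    simp only
    rw [mc_self_eq, Complex.ofReal_re]
  have hμ0 : ∀ z χ, 0 ≤ μ z χ := by
    intro z χ
    rw [hμ]
    simp only
    rw [mc_self_eq, Complex.ofReal_re]
    exact mc_self_nonneg _ _ _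
  have hne : ∀ z : P, z ≠ 1 → (z : G) ≠ 1 := fun z hz h => hz (Subtype.ext h)
  have hbes : ∀ χ : IrrCharacter G, ∑ z : P, (if z = 1 then r χ else μ z χ) ≤ 1 := by
    intro χ
    have hχc : IsClassFunction G (χ : G → ℂ) := irr_isClassFunction χ.2
    have hsum := sum_le_of_orth (Z := P)
      (fun z => if z = 1 then regPart p (χ : G → ℂ) else
        secFun p (fam (Subgroup.zpowers (z : G))) (cenElt' (z : G)) (χ : G → ℂ))
      (fun z => if z = 1 then r χ else μ z χ) ?_ χ ?_ ?_ ?_ (fun z z' => z = z') 1 ?_ ?_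
    · exact_mod_cast hsum
    · intro z
      split_ifs
      · exact hr0 χ
      · exact hμ0 z χ
    · intro z
      split_ifs
      · exact isClassFunction_regPart hχc
      · exact isClassFunction_secFun _ _ _
    · intro z
      split_ifs with hz
      · rw [classInner_regPart_eq_self, hrc]
      · rw [classInner_secFun_irr hM (hcen z z.2) (hdata z z.2).1.1, hμc]
    · intro z
      split_ifs with hz
      · exact hrc χ
      · rw [classInner_secFun_self hp (hcen z z.2), hμc]
    · intro z z'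
      by_cases hzz : z = z'
      · exact Or.inr ⟨by rw [hzz], hzz⟩
      · left
        by_cases hz : z = 1
        · have hz' : z' ≠ 1 := fun h => hzz (hz.trans h.symm)
          rw [if_pos hz, if_neg hz']
          exact classInner_regPart_secFun hp (hcen z' z'.2) (hne z' hz') _ _ _
        · rw [if_neg hz]
          by_cases hz' : z' = 1
          · rw [if_pos hz']
            exact classInner_secFun_regPart hp (hcen z z.2) (hne z hz) _ _ _
          · rw [if_neg hz']
            rcases secFun_orth_or_eq hM (hcen z z.2) (hcen z' z'.2) rfl rfl (hdata z z.2).1.1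
              (hdata z' z'.2).1.1 hχc with h | ⟨-, g, hg, hgg⟩
            · exact h
            · exfalso
              obtain ⟨c', hc', h1, h2⟩ := exists_stab_conj hM hmax (hle z z.2) (hle z' z'.2)
                (hDQ z z.2) (hDQ z' z'.2) hgg
              have h3 : c' * g ∈ cz P := hTC _ h1 h2
              have h4 : (z : G) * (c' * g) = c' * g * (z : G) :=
                Subgroup.mem_centralizer_iff.mp h3 z z.2
              have h5 : (z' : G) * c' = c' * (z' : G) :=
                Subgroup.mem_centralizer_iff.mp hc' (z' : G) (Subgroup.mem_zpowers _)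
              have hg' : g * (z : G) * g⁻¹ = (z' : G) := hg
              apply hzz
              apply Subtype.ext
              calc (z : G) = (z : G) * (c' * g) * (c' * g)⁻¹ := by group
                _ = c' * (g * (z : G) * g⁻¹) * c'⁻¹ := by rw [h4]; group
                _ = c' * (z' : G) * c'⁻¹ := by rw [hg']
                _ = (z' : G) := by rw [← h5]; group
    · intro z
      apply Finset.card_le_one.mpr
      intro a ha b hb
      have ha' := (@Finset.mem_filter _ (fun z' => z = z') (fun _ => Classical.propDecidable _)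
        Finset.univ a).mp ha
      have hb' := (@Finset.mem_filter _ (fun z' => z = z') (fun _ => Classical.propDecidable _)
        Finset.univ b).mp hb
      exact ha'.2.symm.trans hb'.2
  have hrank := blockRank_eq_sum' hM hB
  have hrank' : (blockRank p B : ℝ) = ∑ χ : IrrCharacter G, if χ ∈ B then r χ else 0 := by
    have h1 : ((blockRank p B : ℝ) : ℂ) =
        ((∑ χ : IrrCharacter G, if χ ∈ B then r χ else 0 : ℝ) : ℂ) := by
      push_cast
      rw [hrank]
      refine Finset.sum_congr rfl fun χ _ => ?_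
      by_cases hχ : χ ∈ B
      · rw [Set.indicator_of_mem hχ, if_pos hχ, Pi.one_apply, one_mul,
          classInner_regPart_eq_self, hrc]
      · rw [Set.indicator_of_notMem hχ, if_neg hχ, zero_mul, Complex.ofReal_zero]
    exact_mod_cast h1
  have hcol : ∀ z : P, (1 : ℝ) ≤ ∑ χ : IrrCharacter G, if χ ∈ B then μ z χ else 0 := by
    intro z
    have h1 := sum_mc_diag hM (hcen z z.2) (hdata z z.2).1
    have h2 : ((∑ χ : IrrCharacter G, (if χ ∈ B then μ z χ else 0) : ℝ) : ℂ) =
        ((blockRank p (fam (Subgroup.zpowers (z : G))) : ℝ) : ℂ) := by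
      push_cast
      rw [← h1]
      refine Finset.sum_congr rfl fun χ _ => ?_
      by_cases hχ : χ ∈ B
      · rw [if_pos hχ, Set.indicator_of_mem hχ, Pi.one_apply, one_mul, hμc]
      · rw [if_neg hχ, Set.indicator_of_notMem hχ, zero_mul, Complex.ofReal_zero]
    have h3 : (∑ χ : IrrCharacter G, (if χ ∈ B then μ z χ else 0) : ℝ) =
        (blockRank p (fam (Subgroup.zpowers (z : G))) : ℝ) := by exact_mod_cast h2
    rw [h3]
    have h4 := blockRank_pos_of_nonempty hp (IsPBlock.nonempty (hdata z z.2).1.1)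
    exact_mod_cast h4
  -- double count
  have h1 : ∑ χ : IrrCharacter G, (if χ ∈ B then
      ∑ z : P, (if z = 1 then r χ else μ z χ) else 0) ≤ (Nat.card B : ℝ) := by
    have h2 := card_eq_sum_ite B 1
    rw [mul_one] at h2
    rw [← h2]
    refine Finset.sum_le_sum fun χ _ => ?_
    by_cases hχ : χ ∈ B
    · rw [if_pos hχ, if_pos hχ]
      exact hbes χ
    · rw [if_neg hχ, if_neg hχ]
  have h2 : ∑ χ : IrrCharacter G, (if χ ∈ B then
      ∑ z : P, (if z = 1 then r χ else μ z χ) else 0) =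
      ∑ z : P, ∑ χ : IrrCharacter G, (if χ ∈ B then (if z = 1 then r χ else μ z χ) else 0) := by
    rw [Finset.sum_comm]
    refine Finset.sum_congr rfl fun χ _ => ?_
    by_cases hχ : χ ∈ B
    · simp only [if_pos hχ]
    · simp only [if_neg hχ, Finset.sum_const_zero]
  have h3 : ∀ z : P, (if z = 1 then (blockRank p B : ℝ) else 1) ≤
      ∑ χ : IrrCharacter G, (if χ ∈ B then (if z = 1 then r χ else μ z χ) else 0) := by
    intro z
    by_cases hz : z = 1
    · simp only [if_pos hz]
      rw [hrank']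
    · simp only [if_neg hz]
      exact hcol z
  have h4 : ∑ z : P, (if z = 1 then (blockRank p B : ℝ) else 1) =
      (blockRank p B : ℝ) + Nat.card P - 1 := by
    have e1 : ∀ z : P, (if z = 1 then (blockRank p B : ℝ) else 1) =
        1 + (if z = 1 then ((blockRank p B : ℝ) - 1) else 0) := by
      intro z
      split_ifs <;> ring
    rw [Finset.sum_congr rfl fun z _ => e1 z, Finset.sum_add_distrib, Finset.sum_const,
      Finset.card_univ, ← Nat.card_eq_fintype_card, Finset.sum_ite_eq' Finset.univ (1 : P),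
      if_pos (Finset.mem_univ _)]
    simp only [nsmul_eq_mul, mul_one]
    ring
  have h5 : (blockRank p B : ℝ) + Nat.card P - 1 ≤ (Nat.card B : ℝ) := by
    rw [← h4]
    refine (Finset.sum_le_sum fun z _ => h3 z).trans ?_
    rw [← h2]
    exact h1
  have h6 : ((blockRank p B + Nat.card P : ℕ) : ℝ) ≤ ((Nat.card B + 1 : ℕ) : ℝ) := by
    push_cast
    linarith
  exact_mod_cast h6

/-- A block with cyclic defect group and trivial inertial quotient has `l(B) = 1` and
`k(B) = |P|`. -/
theorem blockRank_eq_one_of_cyclic [Fact p.Prime] (hM : IsPModular p M) {B : Set (IrrCharacter G)}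
    {P : Subgroup G} {c : Set (IrrCharacter (cz P))} (hmax : IsMaximalBrauerPair p M B P c)
    (hcyc : IsCyclic P)
    (hTC : ∀ t, t ∈ Subgroup.normalizer (P : Set G) → StabilizesBlock (cz P) c t → t ∈ cz P) :
    blockRank p B = 1 ∧ Nat.card B = Nat.card P := by
  have := IsPModular.isPrime hM
  have hp : p.Prime := hM.1
  have hB : IsPBlock M B := hmax.1.2.1
  obtain ⟨u, hu⟩ := (Subgroup.isCyclic_iff_exists_zpowers_eq_top P).mp hcyc
  have huP : u ∈ P := hu ▸ Subgroup.mem_zpowers u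
  have hab : P ≤ cz P := by
    intro y hy
    rw [Subgroup.mem_centralizer_iff]
    intro w hw
    have hy' : y ∈ Subgroup.zpowers u := hu ▸ hy
    have hw' : w ∈ Subgroup.zpowers u := hu ▸ hw
    obtain ⟨a, rfl⟩ := hy'
    obtain ⟨b, rfl⟩ := hw'
    show u ^ b * u ^ a = u ^ a * u ^ b
    rw [← zpow_add, ← zpow_add, add_comm]
  have hDQ : P ≤ cz (Subgroup.zpowers u) := hu.symm ▸ hab
  obtain ⟨f, hf⟩ := exists_PLE hM ⟨P, c⟩ hmax.1.1 _ (Subgroup.zpowers u) hu.le rfl
  have hdata := major_data hM hmax hf hDQ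
  have hcen : IsCenOf p (cenElt' u) := isCenOf_cenElt' (exists_orderOf_eq_pow hmax.1.1.1 huP)
  have hl : blockRank p f = 1 := by
    apply Cfsg.Agent.S4669.result p M hM f hdata.1.1 _
      (isDefectGroup_centralizer_of_le hM hmax hf hDQ)
    intro y hy
    rw [Subgroup.mem_center_iff]
    intro w
    apply Subtype.ext
    have hy' : (y : G) ∈ Subgroup.zpowers u := hu ▸ (Subgroup.mem_subgroupOf.mp hy)
    exact (Subgroup.mem_centralizer_iff.mp w.2 y hy').symm
  have h1 := card_le_pow_mul_blockRank hM hcen hdata.1 hdata.2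
  rw [hl, mul_one, ← IsDefectGroup.card_eq hM hB (isDefectGroup_of_maximal hM hmax)] at h1
  have h2 := blockRank_add_card_le hM hmax hab hTC
  have h3 := blockRank_pos_of_nonempty hp (IsPBlock.nonempty hB)
  constructor <;> omega

end Cfsg.Agent.Lib.Helper24
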