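import Cfsg.Agent.Lib.Helper24.Knorr4
import Cfsg.Agent.Lib.Helper24.BrauerCorr
import Cfsg.Agent.S4670

/-!
# Harris–Knörr, part 1: transport of defect groups and induced blocks; the Brauer correspondence
over a subgroup containing the normalizer, in terms of block induction
-/

set_option autoImplicit false
set_option linter.unusedSectionVars false
set_option linter.unusedSimpArgs false

namespace Cfsg.Agent.Lib.Helper24

open Cfsg Cfsg.Agent.Lib.Helper2 Cfsg.Agent.Lib.Helper6
open scoped ComplexConjugate Classical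

attribute [local instance] irrFintype

section transport

variable {H H' : Type*} [Group H] [Group H'] [Fintype H] [Fintype H'] {M : Ideal AlgInt} {p : ℕ}

theorem isDefectClass_blockMap (α : H' ≃* H) (b : Set (IrrCharacter H)) (g : H') :
    IsDefectClass M (blockMap α b) g ↔ IsDefectClass M b (α g) := by
  unfold IsDefectClass
  rw [blockCoeff_blockMap]
  refine and_congr_right fun _ => and_congr_right fun _ => ?_
  constructor
  · intro h χ hχ
    have := h (irrMap α χ) ((mem_blockMap _ _ _).mpr hχ)
    rwa [irrMap_coe, centralChar_comp] at this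
  · rintro h _ ⟨χ, hχ, rfl⟩
    rw [irrMap_coe, centralChar_comp]
    exact h χ hχ

theorem card_comap_equiv (α : H' ≃* H) (K : Subgroup H) :
    Nat.card (K.comap α.toMonoidHom) = Nat.card K := by
  rw [Subgroup.comap_equiv_eq_map_symm']
  exact Subgroup.card_map_of_injective α.symm.injective

theorem isSylIn_comap [Fact p.Prime] (α : H' ≃* H) (K D : Subgroup H) :
    IsSylIn p (K.comap α.toMonoidHom) (D.comap α.toMonoidHom) ↔ IsSylIn p K D := by
  rw [isSylIn_iff, isSylIn_iff, card_comap_equiv, card_comap_equiv,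
    Subgroup.comap_le_comap_of_surjective α.surjective]

theorem cen_eq_comap (α : H' ≃* H) (g : H') : cen g = (cen (α g)).comap α.toMonoidHom := by
  ext x
  rw [Subgroup.mem_comap, Subgroup.mem_centralizer_singleton_iff,
    Subgroup.mem_centralizer_singleton_iff]
  constructor
  · intro h
    have := congrArg α h
    simpa using this
  · intro h
    apply α.injective
    simpa using h

theorem isDefectGroup_blockMap_iff [Fact p.Prime] (α : H' ≃* H) (b : Set (IrrCharacter H))
    (D : Subgroup H) :
    IsDefectGroup p M (blockMap α b) (D.comap α.toMonoidHom) ↔ IsDefectGroup p M b D := by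
  rw [isDefectGroup_iff, isDefectGroup_iff]
  constructor
  · rintro ⟨g, hg, hs⟩
    refine ⟨α g, (isDefectClass_blockMap α b g).mp hg, ?_⟩
    rw [cen_eq_comap α g] at hs
    exact (isSylIn_comap α _ _).mp hs
  · rintro ⟨g, hg, hs⟩
    obtain ⟨g', rfl⟩ := α.surjective g
    refine ⟨g', (isDefectClass_blockMap α b g').mpr hg, ?_⟩
    rw [cen_eq_comap α g']
    exact (isSylIn_comap α _ _).mpr hs

theorem om_comp_equiv' (α : H' ≃* H) (ξ f : H → ℂ) : om (ξ ∘ α) (f ∘ α) = om ξ f := by
  unfold om
  congr 1
  · exact Fintype.sum_equiv α.toEquiv _ _ fun _ => rfl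
  · simp

end transport

section copy

variable {G : Type*} [Group G] [Fintype G] {N : Subgroup G} {M : Ideal AlgInt} {p : ℕ}

theorem inducedCentralCharIn_copy {L' : Subgroup N} {L : Subgroup G} (h : IsCopy L' L)
    (ξ' : L' → ℂ) (n : N) :
    inducedCentralCharIn N L (ξ' ∘ copyIso h) (n : G) = inducedCentralChar L' ξ' n := by
  unfold inducedCentralCharIn inducedCentralChar
  rw [finsum_mem_def, finsum_mem_def, finsum_eq_sum_of_fintype, finsum_eq_sum_of_fintype]
  refine Fintype.sum_equiv (copyIso h).toEquiv _ _ fun k => ?_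
  have hiff : k ∈ {k : L | ∃ x : N, (x : G) * (k : G) * (x : G)⁻¹ = (n : G)} ↔
      (copyIso h).toEquiv k ∈ {k' : L' | IsConj n (k' : N)} := by
    simp only [Set.mem_ofPred_eq]
    constructor
    · rintro ⟨x, hx⟩
      apply IsConj.symm
      rw [isConj_iff]
      exact ⟨x, Subtype.ext hx⟩
    · intro hc
      obtain ⟨x, hx⟩ := isConj_iff.mp hc.symm
      exact ⟨x, congrArg Subtype.val hx⟩
  by_cases hk : k ∈ {k : L | ∃ x : N, (x : G) * (k : G) * (x : G)⁻¹ = (n : G)}
  · rw [Set.indicator_of_mem hk, Set.indicator_of_mem (hiff.mp hk)]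
    rfl
  · rw [Set.indicator_of_notMem hk, Set.indicator_of_notMem (fun h' => hk (hiff.mpr h'))]

theorem isInducedBlock_of_in {L' : Subgroup N} {L : Subgroup G} (h : IsCopy L' L)
    {e' : Set (IrrCharacter L')} {d : Set (IrrCharacter N)}
    (hind : IsInducedBlockIn M N L (upSet h e') d) : IsInducedBlock M L' e' d := by
  refine ⟨(isPBlock_upSet_iff h).mp hind.1, hind.2.1, ?_⟩
  intro ξ' hξ' χ hχ n
  have := hind.2.2 (irrMap (copyIso h) ξ') ((mem_blockMap _ _ _).mpr hξ') χ hχ n
  rwa [irrMap_coe, inducedCentralCharIn_copy] at this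

theorem isDefectGroup_of_upSet [Fact p.Prime] {L' : Subgroup N} {L : Subgroup G}
    (h : IsCopy L' L) {e' : Set (IrrCharacter L')} {Q : Subgroup G}
    (hD : IsDefectGroup p M (upSet h e') (Q.subgroupOf L)) :
    IsDefectGroup p M e' ((Q.subgroupOf N).subgroupOf L') := by
  rw [← isDefectGroup_blockMap_iff (copyIso h)]
  have e1 : Subgroup.comap (copyIso h).toMonoidHom ((Q.subgroupOf N).subgroupOf L') =
      Q.subgroupOf L := by
    ext x
    rfl
  rw [e1]
  exact hD

end copy

section link

variable {G : Type*} [Group G] [Fintype G] {M : Ideal AlgInt} {p : ℕ}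

/-- a class function which is small on `C(P)` is killed by the central characters of a block
with defect group `P` -/
theorem om_memLocalIdeal_of_defect (hM : IsPModular p M) {c : Set (IrrCharacter G)}
    (hc : IsPBlock M c) {P : Subgroup G} (hP : IsDefectGroup p M c P) {f : G → ℂ}
    (hf : IsClassFunction G f) (hS : ∀ x, MemLocalRing M (f x))
    (hz : ∀ x ∈ cz P, MemLocalIdeal M (f x)) {ξ : IrrCharacter G} (hξ : ξ ∈ c) :
    MemLocalIdeal M (om (ξ : G → ℂ) f) := by
  have := IsPModular.isPrime hM
  obtain ⟨g, hg, hsyl⟩ := isDefectGroup_iff.mp hP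
  rw [om_eq_sum_classes (irr_isClassFunction ξ.2) hf]
  refine MemLocalIdeal.sum _ fun C _ => ?_
  by_cases hu : MemLocalIdeal M (centralChar (ξ : G → ℂ) (Quotient.out C))
  · exact MemLocalIdeal.mul_left (hS _) hu
  · obtain ⟨x, hx, hxP⟩ := exists_conj_mem_centralizer hM hc
      (not_memLocalIdeal_centralChar_of_exists hc ⟨ξ, hξ, hu⟩) (isDefectClass_iff.mp hg).2.1
      hsyl.isPGroup (le_cen_iff.mp hsyl.le)
    obtain ⟨t, rfl⟩ := isConj_iff.mp hx
    have := hz _ hxP
    rw [hf] at this
    exact MemLocalIdeal.mul_right this (centralChar_memLocalRing ξ.2 _)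

/-- the Brauer correspondence over `H ≥ N_G(P)`: block induction agrees with the idempotent
description -/
theorem brauer_link (hM : IsPModular p M) {P H : Subgroup G} (hP : IsPGroup p P)
    (hH : Subgroup.normalizer (P : Set G) ≤ H) {c : Set (IrrCharacter H)}
    {B : Set (IrrCharacter G)} (hD : IsDefectGroup p M c (P.subgroupOf H))
    (hind : IsInducedBlock M H c B) :
    IsDefectGroup p M B P ∧
      ∀ x ∈ cz P, MemLocalIdeal M (blockCoeff B x - subgroupBlockCoeff H c x) := by
  have := IsPModular.isPrime hM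
  have : Fact p.Prime := ⟨hM.1⟩
  have hPH : P ≤ H := Subgroup.le_normalizer.trans hH
  obtain ⟨B', ⟨hB', hDB', hcong⟩, -⟩ := (Cfsg.Agent.S4670.result p M hM P H hP hH).2 c hind.1 hD
  obtain ⟨ξ, hξ⟩ := IsPBlock.nonempty hind.1
  obtain ⟨χ, hχ⟩ := IsPBlock.nonempty hind.2.1
  have hcl := isClassFunction_coef (B'.indicator 1)
  have hS : ∀ g, MemLocalRing M (coef (B'.indicator 1) g) :=
    mem_ZS.mp (IsPBlock.indicator_mem_ZS hB')
  have h1 := om_res_sub_memLocalIdeal H (irr_isClassFunction χ.2) (hind.2.2 ξ hξ χ hχ) hcl hS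
  rw [om_coef] at h1
  have h2 : MemLocalIdeal M (om (ξ : H → ℂ)
      ((fun h : H => coef (B'.indicator 1) (h : G)) - coef (c.indicator 1))) := by
    apply om_memLocalIdeal_of_defect hM hind.1 hD _ _ _ hξ
    · exact isClassFunction_sub (isClassFunction_res H hcl) (isClassFunction_coef _)
    · intro x
      exact MemLocalRing.sub (hS _) (mem_ZS.mp (IsPBlock.indicator_mem_ZS hind.1) x)
    · intro x hx
      have := hcong x ((mem_centralizer_subgroupOf_iff hPH x).mp hx)
      rwa [blockCoeff_eq_coef, sbc_coe, blockCoeff_eq_coef] at this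
  rw [om_sub, om_coef, Set.indicator_of_mem hξ, Pi.one_apply] at h2
  have hχB' : χ ∈ B' := by
    by_contra hcon
    rw [Set.indicator_of_notMem hcon, sub_zero] at h1
    apply not_memLocalIdeal_one (M := M)
    have := MemLocalIdeal.sub h1 h2
    simpa using this
  have hBB : B = B' := IsPBlock.eq_of_mem_of_mem hind.2.1 hB' hχ hχB'
  subst hBB
  exact ⟨hDB', hcong⟩

end link

end Cfsg.Agent.Lib.Helper24
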