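import Mathlib
import Cfsg.Prelude.Def_Blocks
import Cfsg.Agent.Lib.Helper24.Cyc2
import Cfsg.Agent.Lib.Helper24.HK1

/-!
# Blocks with cyclic defect groups: local structure
-/

set_option autoImplicit false
set_option linter.unusedSectionVars false

namespace Cfsg.Agent.Lib.Helper24

open Cfsg Cfsg.Agent.Lib.Helper2 Cfsg.Agent.Lib.Helper6
open scoped ComplexConjugate Classical

attribute [local instance] irrFintype

variable {G : Type*} [Group G] [Fintype G] {p : ℕ} {M : Ideal AlgInt}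

theorem le_cz_of_cyclic {P : Subgroup G} (hcyc : IsCyclic P) : P ≤ cz P := by
  obtain ⟨u, hu⟩ := (Subgroup.isCyclic_iff_exists_zpowers_eq_top P).mp hcyc
  intro y hy
  rw [Subgroup.mem_centralizer_iff]
  intro w hw
  have hy' : y ∈ Subgroup.zpowers u := hu ▸ hy
  have hw' : w ∈ Subgroup.zpowers u := hu ▸ hw
  obtain ⟨a, rfl⟩ := hy'
  obtain ⟨b, rfl⟩ := hw'
  show u ^ b * u ^ a = u ^ a * u ^ b
  rw [← zpow_add, ← zpow_add, add_comm]

/-- the inertial index of a maximal pair with abelian `P` is prime to `p` -/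
theorem not_dvd_relIndex_of_maximal (hM : IsPModular p M) {B : Set (IrrCharacter G)}
    {P : Subgroup G} {c : Set (IrrCharacter (cz P))} (hmax : IsMaximalBrauerPair p M B P c)
    (hab : P ≤ cz P) {T : Subgroup G}
    (hT : ∀ g : G, g ∈ T ↔ (g ∈ Subgroup.normalizer (P : Set G) ∧ StabilizesBlock (cz P) c g)) :
    ¬ p ∣ (cz P).relIndex T := by
  have : Fact p.Prime := ⟨hM.1⟩
  have hle : SubpairLE p M P c P c := Relation.ReflTransGen.refl
  exact (isDefectGroup_iff_not_dvd_relIndex hM hmax.1.1.1 (sup_eq_right.mpr hab).symm hmax.1.1.2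
    (isDefectGroup_centralizer_of_le hM hmax hle hab)
    (isInducedBlock_of_isBrauerPairOf hM hab hmax.1) hT).mp (isDefectGroup_of_maximal hM hmax)

/-- an element of the stabilizer of a maximal pair `(P, c)`, `P` cyclic, which centralizes a
nontrivial element of `P` centralizes `P` -/
theorem mem_cz_of_stab_cyclic (hM : IsPModular p M) {B : Set (IrrCharacter G)}
    {P : Subgroup G} {c : Set (IrrCharacter (cz P))} (hmax : IsMaximalBrauerPair p M B P c)
    (hcyc : IsCyclic P) {x q : G} (hx : x ∈ Subgroup.normalizer (P : Set G))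
    (hxc : StabilizesBlock (cz P) c x) (hq : q ∈ P) (hq1 : q ≠ 1) (hxq : x * q = q * x) :
    x ∈ cz P := by
  have : Fact p.Prime := ⟨hM.1⟩
  have hab := le_cz_of_cyclic hcyc
  obtain ⟨T, hTdef⟩ : ∃ T : Subgroup G, T = Subgroup.normalizer (P : Set G) ⊓ stabSub (cz P) c :=
    ⟨_, rfl⟩
  have hT : ∀ g : G, g ∈ T ↔
      (g ∈ Subgroup.normalizer (P : Set G) ∧ StabilizesBlock (cz P) c g) := by
    intro g
    rw [hTdef, Subgroup.mem_inf, mem_stabSub]
  have h1 := not_dvd_relIndex_of_maximal hM hmax hab hT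
  have hxT : x ∈ T := (hT x).mpr ⟨hx, hxc⟩
  have hn : ((cz P).subgroupOf T).Normal := by
    apply Subgroup.normal_subgroupOf_of_le_normalizer
    intro t ht
    exact (isConjSub_of_mem_normalizer ((hT t).mp ht).1).centralizer.mem_normalizer
  have h2 : x ^ (cz P).relIndex T ∈ cz P := by
    have := Subgroup.pow_index_mem ((cz P).subgroupOf T) (⟨x, hxT⟩ : T)
    rw [Subgroup.mem_subgroupOf] at this
    exact this
  obtain ⟨n, hn'⟩ := exists_pow_mem_centralizer_of_cyclic hmax.1.1.1 hcyc hx hq hq1 hxq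
  apply mem_of_pow_mem_of_coprime _ _ hn' h2
  exact Nat.Coprime.pow_left n ((Nat.Prime.coprime_iff_not_dvd hM.1).mpr h1)

theorem isCyclic_cj {D : Subgroup G} (h : IsCyclic D) (x : G) : IsCyclic (cj x D) :=
  (D.equivMapOfInjective (MulAut.conj x).toMonoidHom (MulAut.conj x).injective).isCyclic.mp h

/-- A block with cyclic defect groups of a group with a nontrivial central `p`-element has
`p`-regular rank one and is nilpotent. -/
theorem cyclic_central_block (hM : IsPModular p M) {f : Set (IrrCharacter G)} (hf : IsPBlock M f)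
    {D₀ : Subgroup G} (hD₀ : IsDefectGroup p M f D₀) (hcyc : IsCyclic D₀) {q : G}
    (hq : q ∈ Subgroup.center G) (hq1 : q ≠ 1) (hqp : ∃ k : ℕ, orderOf q = p ^ k) :
    blockRank p f = 1 ∧ IsNilpotentBlock p M f := by
  have : Fact p.Prime := ⟨hM.1⟩
  have hZn : (Subgroup.zpowers q).Normal := normal_of_le_center (Subgroup.zpowers_le.mpr hq)
  have hZp : IsPGroup p (Subgroup.zpowers q) := by
    obtain ⟨k, hk⟩ := hqp
    apply IsPGroup.of_card (n := k)
    rw [Nat.card_zpowers, hk]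
  have hqD : ∀ D, IsDefectGroup p M f D → q ∈ D := fun D hD =>
    normal_le_defectGroup hM hf hD hZn hZp (Subgroup.mem_zpowers q)
  have hcD : ∀ D, IsDefectGroup p M f D → IsCyclic D := by
    intro D hD
    obtain ⟨x, rfl⟩ := isDefectGroup_exists_conj hM hf hD₀ hD
    exact isCyclic_cj hcyc x
  have hqc : ∀ x, x * q = q * x := fun x => Subgroup.mem_center_iff.mp hq x
  constructor
  · obtain ⟨e, he⟩ := exists_pair_of_defectGroup hM hf hD₀
    have hmax := isMaximalBrauerPair_of_isDefectGroup hM he hD₀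
    exact (blockRank_eq_one_of_cyclic hM hmax hcyc (fun t ht hts =>
      mem_cz_of_stab_cyclic hM hmax hcyc ht hts (hqD _ hD₀) hq1 (hqc t))).1
  · refine ⟨hf, fun R g h x hxN _ hreg => ?_⟩
    obtain ⟨c, hc, hmax⟩ := exists_maximal_ge (p := p) (M := M) _ ⟨R, g⟩ h rfl
    have hD := isDefectGroup_of_maximal hM hmax
    have hRD : R ≤ c.1 := PLE.le hc
    have hcc := hcD _ hD
    rcases mem_or_le_zpowers_of_cyclic hmax.1.1.1 hcc hRD (hqD _ hD) with h1 | h1
    · obtain ⟨n, hn⟩ := exists_pow_mem_centralizer_of_cyclic (hmax.1.1.1.to_le hRD)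
        (Subgroup.isCyclic_of_le hRD) hxN h1 hq1 (hqc x)
      apply mem_of_pow_mem_of_coprime _ _ hn (b := orderOf x)
        (by rw [pow_orderOf_eq_one]; exact Subgroup.one_mem _)
      exact Nat.Coprime.pow_left n ((Nat.Prime.coprime_iff_not_dvd hM.1).mpr hreg)
    · rw [Subgroup.mem_centralizer_iff]
      intro y hy
      have hyc : y ∈ Subgroup.center G := (Subgroup.zpowers_le.mpr hq) (h1 hy)
      exact (Subgroup.mem_center_iff.mp hyc x).symm

/-- the block of `C_G(Q)` induced (inside `C_G(Q)`) by `c` gives the subpair of `(P, c)` on `Q` -/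
theorem PLE_of_inducedIn (hM : IsPModular p M) {P Q : Subgroup G}
    {c : Set (IrrCharacter (cz P))} {f : Set (IrrCharacter (cz Q))}
    (hPc : IsBrauerPair p M P c) (hQP : Q ≤ P) (hab : P ≤ cz P)
    (hf : IsInducedBlockIn M (cz Q) (cz P) c f) : SubpairLE p M Q f P c := by
  have := IsPModular.isPrime hM
  have hPQ : P ≤ cz Q := hab.trans (cz_anti hQP)
  obtain ⟨f', hf'⟩ := exists_PLE hM ⟨P, c⟩ hPc _ Q hQP rfl
  have hn : IsNormalSubpair p M Q f' P c :=
    rel_of_PLE_of_normal hM hf' hPc (hPQ.trans (Subgroup.centralizer_le_normalizer _))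
  obtain ⟨a₂, ha₂⟩ := exists_pairCopy_down (H := cz Q) ⟨P, c⟩ hPQ (cz_anti hQP)
  have hb₂ : IsBrauerPairOf p M f' a₂.1 a₂.2 :=
    (ha₂.isBrauerPairOf_iff f').mpr ⟨hn.2.1, hn.1.2, hn.2.2.2.2.2⟩
  have hab' : a₂.1 ≤ cz a₂.1 := (ha₂.1.le_iff ha₂.isCopy_cz).mpr hab
  have h1 : IsInducedBlock M (cz a₂.1) a₂.2 f' := isInducedBlock_of_isBrauerPairOf hM hab' hb₂
  have h2 : IsInducedBlock M (cz a₂.1) a₂.2 f := by
    apply isInducedBlock_of_in ha₂.isCopy_cz
    have h3 : c = upSet ha₂.isCopy_cz a₂.2 := ha₂.eq_upSet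
    rw [← h3]
    exact hf
  rw [isInducedBlock_unique h2 h1]
  exact hf'

end Cfsg.Agent.Lib.Helper24
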