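import Mathlib
import Cfsg.Prelude.Def_Blocks
import Cfsg.Agent.Lib.Helper24.Cyc3
import Cfsg.Agent.S4687

/-!
# Abelian defect groups: the local blocks `c^{C_G(Q)}`
-/

set_option autoImplicit false
set_option linter.unusedSectionVars false

namespace Cfsg.Agent.Lib.Helper24

open Cfsg Cfsg.Agent.Lib.Helper2 Cfsg.Agent.Lib.Helper6
open scoped ComplexConjugate Classical

attribute [local instance] irrFintype

variable {G : Type*} [Group G] [Fintype G] {p : ℕ} {M : Ideal AlgInt}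

theorem isInducedBlockIn_of_copy {N : Subgroup G} {L' : Subgroup N} {L : Subgroup G}
    (h : IsCopy L' L) {e' : Set (IrrCharacter L')} {d : Set (IrrCharacter N)}
    (hind : IsInducedBlock M L' e' d) : IsInducedBlockIn M N L (upSet h e') d := by
  refine ⟨(isPBlock_upSet_iff h).mpr hind.1, hind.2.1, ?_⟩
  intro ξ hξ χ hχ n
  obtain ⟨ξ', hξ', rfl⟩ := hξ
  have := hind.2.2 ξ' hξ' χ hχ n
  rwa [irrMap_coe, inducedCentralCharIn_copy]

/-- the subpair of `(P, c)` on `Q` is induced by `c` inside `C_G(Q)` (`P` abelian) -/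
theorem inducedIn_of_PLE (hM : IsPModular p M) {P Q : Subgroup G}
    {c : Set (IrrCharacter (cz P))} {f : Set (IrrCharacter (cz Q))}
    (hPc : IsBrauerPair p M P c) (hab : P ≤ cz P) (hle : SubpairLE p M Q f P c) :
    IsInducedBlockIn M (cz Q) (cz P) c f := by
  have := IsPModular.isPrime hM
  have hQP : Q ≤ P := PLE.le hle
  have hPQ : P ≤ cz Q := hab.trans (cz_anti hQP)
  have hn : IsNormalSubpair p M Q f P c :=
    rel_of_PLE_of_normal hM hle hPc (hPQ.trans (Subgroup.centralizer_le_normalizer _))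
  obtain ⟨a₂, ha₂⟩ := exists_pairCopy_down (H := cz Q) ⟨P, c⟩ hPQ (cz_anti hQP)
  have hb₂ : IsBrauerPairOf p M f a₂.1 a₂.2 :=
    (ha₂.isBrauerPairOf_iff f).mpr ⟨hn.2.1, hn.1.2, hn.2.2.2.2.2⟩
  have hab' : a₂.1 ≤ cz a₂.1 := (ha₂.1.le_iff ha₂.isCopy_cz).mpr hab
  have h1 : IsInducedBlock M (cz a₂.1) a₂.2 f := isInducedBlock_of_isBrauerPairOf hM hab' hb₂
  have h3 : c = upSet ha₂.isCopy_cz a₂.2 := ha₂.eq_upSet
  rw [h3]
  exact isInducedBlockIn_of_copy _ h1

/-- nilpotency of the local block at `Q ≤ P`, `P` abelian -/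
theorem isNilpotentBlock_local_iff (hM : IsPModular p M) {B : Set (IrrCharacter G)}
    {P Q : Subgroup G} {c : Set (IrrCharacter (cz P))} {f : Set (IrrCharacter (cz Q))}
    (hmax : IsMaximalBrauerPair p M B P c) (hab : P ≤ cz P) (hle : SubpairLE p M Q f P c) :
    IsNilpotentBlock p M f ↔ ∀ x ∈ cz Q, x ∈ Subgroup.normalizer (P : Set G) →
      StabilizesBlock (cz P) c x → x ∈ cz P := by
  have := IsPModular.isPrime hM
  have : Fact p.Prime := ⟨hM.1⟩
  have hQP : Q ≤ P := PLE.le hle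
  have hPQ : P ≤ cz Q := hab.trans (cz_anti hQP)
  have hn : IsNormalSubpair p M Q f P c :=
    rel_of_PLE_of_normal hM hle hmax.1.1 (hPQ.trans (Subgroup.centralizer_le_normalizer _))
  obtain ⟨a₂, ha₂⟩ := exists_pairCopy_down (H := cz Q) ⟨P, c⟩ hPQ (cz_anti hQP)
  have hb₂ : IsBrauerPairOf p M f a₂.1 a₂.2 :=
    (ha₂.isBrauerPairOf_iff f).mpr ⟨hn.2.1, hn.1.2, hn.2.2.2.2.2⟩
  have hD₂ : IsDefectGroup p M f a₂.1 := by
    rw [ha₂.1.eq_subgroupOf]
    exact isDefectGroup_centralizer_of_le hM hmax hle hPQ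
  have hmax' := isMaximalBrauerPair_of_isDefectGroup hM hb₂ hD₂
  have hab' : a₂.1 ≤ cz a₂.1 := (ha₂.1.le_iff ha₂.isCopy_cz).mpr hab
  have h3 : c = upSet ha₂.isCopy_cz a₂.2 := ha₂.eq_upSet
  rw [Cfsg.Agent.S4687.result p M hM f a₂.1 a₂.2 hmax' (fun x hx y hy =>
    (Subgroup.mem_centralizer_iff.mp (hab' hy) x hx))]
  constructor
  · intro h x hx hxP hxc
    have h4 := h ⟨x, hx⟩ ((ha₂.1.mem_normalizer_iff _).mpr hxP)
      ((stabilizesBlock_upSet_iff ha₂.isCopy_cz _).mp (h3 ▸ hxc))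
    exact (ha₂.1.mem_centralizer_iff _).mp h4
  · intro h x hxP hxc
    apply (ha₂.1.mem_centralizer_iff _).mpr
    apply h x x.2 ((ha₂.1.mem_normalizer_iff _).mp hxP)
    rw [h3]
    exact (stabilizesBlock_upSet_iff ha₂.isCopy_cz _).mpr hxc

end Cfsg.Agent.Lib.Helper24
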