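import Cfsg.Agent.Lib.Helper24.BlockNil

/-!
# Centric Brauer pairs: the block of `Q C_G(Q)` is nilpotent
-/

set_option autoImplicit false

namespace Cfsg.Agent.Lib.Helper24

open Cfsg Cfsg.Agent.Lib.Helper2 Cfsg.Agent.Lib.Helper6
open scoped ComplexConjugate Classical

attribute [local instance] irrFintype

section

variable {G : Type*} [Group G] [Fintype G] {M : Ideal AlgInt} {p : ℕ}

/-- if the whole group stabilizes the `B`-pair `(Q, f)`, the idempotent of `B` is that of `f` -/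
theorem blockCoeff_eq_sbc_of_stable (hM : IsPModular p M) {B : Set (IrrCharacter G)}
    {Q : Subgroup G} {f : Set (IrrCharacter (cz Q))} (hQf : IsBrauerPairOf p M B Q f)
    (hG : ∀ x : G, x ∈ Subgroup.normalizer (Q : Set G) ∧ StabilizesBlock (cz Q) f x) (g : G) :
    blockCoeff B g = subgroupBlockCoeff (cz Q) f g := by
  have := IsPModular.isPrime hM
  have hT : IsPairStab Q f ⊤ := fun y => ⟨fun _ => hG y, fun _ => Subgroup.mem_top y⟩
  obtain ⟨F₁, hF₁, hFf₁⟩ := hT.exists_block hM hQf.1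
  have h1 : ∀ g, blockCoeff (blockMap Subgroup.topEquiv.symm F₁) g =
      subgroupBlockCoeff (cz Q) f g := by
    intro g
    rw [blockCoeff_blockMap, ← hFf₁, ← sbc_coe]
    rfl
  have h2 : IsBrauerPairOf p M (blockMap Subgroup.topEquiv.symm F₁) Q f := by
    refine ⟨hQf.1, isPBlock_blockMap _ hF₁, fun ξ hξ => ?_⟩
    have e1 : blockCoeff (blockMap Subgroup.topEquiv.symm F₁) = subgroupBlockCoeff (cz Q) f :=
      funext h1
    rw [e1, brauerOmega_sbc_self, Set.indicator_of_mem hξ, Pi.one_apply, sub_self]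
    exact memLocalIdeal_zero
  rw [(existsUnique_block_of_pair hM hQf.1).unique hQf h2]
  exact h1 g

/-- `(Q, f) ≤ (P, e)` with `C_P(Q) ≤ Q`, `G = N_G(Q, f)`: the defect groups of the block of
`Q C_G(Q)` with the idempotent of `f` lie in `Q`. -/
theorem defectGroup_le_of_centric (hM : IsPModular p M) {B : Set (IrrCharacter G)}
    {P Q : Subgroup G} {e : Set (IrrCharacter (cz P))} {f : Set (IrrCharacter (cz Q))}
    (hmax : IsMaximalBrauerPair p M B P e) (hle : SubpairLE p M Q f P e)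
    (hcen : P ⊓ cz Q ≤ Q)
    (hG : ∀ x : G, x ∈ Subgroup.normalizer (Q : Set G) ∧ StabilizesBlock (cz Q) f x)
    {F' : Set (IrrCharacter ↥(Q ⊔ cz Q))}
    (hFf : subgroupBlockCoeff (Q ⊔ cz Q) F' = subgroupBlockCoeff (cz Q) f)
    {D : Subgroup ↥(Q ⊔ cz Q)} (hD : IsDefectGroup p M F' D) :
    D.map (Q ⊔ cz Q).subtype ≤ Q := by
  have hQP : Q ≤ P := PLE.le hle
  have hQf : IsBrauerPairOf p M B Q f := (PLE.isBrauerPairOf_iff hM hle hmax.1.2.1).mp hmax.1
  obtain ⟨R, hR, g, hg⟩ : ∃ R : Subgroup G, R = Q ⊔ D.map (Q ⊔ cz Q).subtype ∧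
      ∃ g : Set (IrrCharacter (cz R)), IsNormalSubpair p M Q f R g :=
    ⟨_, rfl, exists_overpair_of_defectGroup hM hQf.1 (fun x _ => (hG x).1) (fun x _ => (hG x).2)
      hFf hD⟩
  have hRg : IsBrauerPairOf p M B R g :=
    (isBrauerPairOf_iff_of_normalSubpair hM hg hmax.1.2.1).mpr hQf
  have hRH : R ≤ Q ⊔ cz Q := hR ▸ sup_le le_sup_left (Subgroup.map_subtype_le _)
  obtain ⟨y, hy⟩ := exists_conj_le_maximal hM hmax hRg
  have h1 : R.map (MulAut.conj y).toMonoidHom ≤ Q := by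
    intro s hs
    have hsP : s ∈ P := PLE.le hy hs
    have hsH : s ∈ Q ⊔ cz Q := by
      have h2 : y ∈ Subgroup.normalizer ((Q ⊔ cz Q : Subgroup G) : Set G) :=
        mem_normalizer_sup (hG y).1 (isConjSub_of_mem_normalizer (hG y).1).centralizer.mem_normalizer
      exact (isConjSub_map y R).mono (isConjSub_of_mem_normalizer h2) hRH hs
    rw [← SetLike.mem_coe, Subgroup.coe_mul_of_left_le_normalizer_right Q (cz Q)
      (fun x hx => (isConjSub_of_mem_normalizer
        (Subgroup.le_normalizer hx)).centralizer.mem_normalizer)] at hsH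
    obtain ⟨q, hq, c, hc, hqc⟩ := hsH
    have hqc' : q * c = s := hqc
    have hcP : c ∈ P := by
      have : c = q⁻¹ * s := by rw [← hqc']; group
      rw [this]
      exact P.mul_mem (P.inv_mem (hQP hq)) hsP
    rw [← hqc']
    exact Q.mul_mem hq (hcen ⟨hcP, hc⟩)
  have h2 : Nat.card R ≤ Nat.card Q := by
    rw [← (isConjSub_map y R).card_eq]
    exact Subgroup.card_le_of_le h1
  have h3 : Q = R := Subgroup.eq_of_le_of_card_ge hg.2.2.1 h2
  exact (le_sup_right.trans hR.ge).trans h3.ge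

/-- the block of `Q C_G(Q)` with the idempotent of `f` is nilpotent if its defect groups lie in
`Q` -/
theorem nilpotent_of_defectGroup_le (hM : IsPModular p M) {Q : Subgroup G} (hQ : IsPGroup p Q)
    {F' : Set (IrrCharacter ↥(Q ⊔ cz Q))} (hF' : IsPBlock M F')
    (hD : ∀ D : Subgroup ↥(Q ⊔ cz Q), IsDefectGroup p M F' D → D.map (Q ⊔ cz Q).subtype ≤ Q) :
    IsNilpotentBlock p M F' := by
  refine ⟨hF', fun R' g' h x hxN _ hreg => ?_⟩
  obtain ⟨c, hc, hmax⟩ := exists_maximal_ge (p := p) (M := M) _ ⟨R', g'⟩ h rfl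
  have h1 := hD _ (isDefectGroup_of_maximal hM hmax)
  have hRQ : R'.map (Q ⊔ cz Q).subtype ≤ Q := (Subgroup.map_mono (PLE.le hc)).trans h1
  have hcopy := isCopy_map R'
  rw [hcopy.mem_centralizer_iff]
  have hx := x.2
  rw [← SetLike.mem_coe, Subgroup.coe_mul_of_left_le_normalizer_right Q (cz Q)
    (fun x hx => (isConjSub_of_mem_normalizer
      (Subgroup.le_normalizer hx)).centralizer.mem_normalizer)] at hx
  obtain ⟨q, hq, c', hc', hqc⟩ := hx
  have hqc' : q * c' = (x : G) := hqc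
  obtain ⟨k, hk⟩ := hQ ⟨q, hq⟩
  have hk' : q ^ p ^ k = 1 := congrArg Subtype.val hk
  apply mem_cz_of_conj_eq hM.1 (by unfold IsPRegular at hreg; rwa [Subgroup.orderOf_coe]) hk'
  · exact fun u hu => Helper26.conj_mem_of_normalizer ((hcopy.mem_normalizer_iff x).mp hxN) hu
  · intro u hu
    rw [← hqc']
    have h5 : c' * u * c'⁻¹ = u := by
      rw [← (Subgroup.mem_centralizer_iff.mp hc') u (hRQ hu)]
      group
    calc q * c' * u * (q * c')⁻¹ = q * (c' * u * c'⁻¹) * q⁻¹ := by group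
      _ = q * u * q⁻¹ := by rw [h5]

end

end Cfsg.Agent.Lib.Helper24
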