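import Cfsg.Agent.Lib.Helper13.DetChar
import Cfsg.Agent.Lib.Helper13.Thompson2

/-!
# The determinantal character of a sum of characters
-/

set_option autoImplicit false
set_option linter.unusedSectionVars false

namespace Cfsg.Agent.Lib.Helper24

open Cfsg Cfsg.Agent.Lib.Helper2 Cfsg.Agent.Lib.Helper13

section

variable {G : Type*} [Group G] [Finite G]

theorem detChar_add {χ ψ : G → ℂ} (hχ : IsCharacter G χ) (hψ : IsCharacter G ψ) :
    detChar (χ + ψ) = detChar χ * detChar ψ := by
  obtain ⟨n, ρ, rfl⟩ := hχ
  obtain ⟨m, σ, rfl⟩ := hψ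
  have h1 : ρ.character + σ.character = (ρ.prod σ).character := by
    ext g
    simp only [Representation.character, Pi.add_apply]
    rw [show (ρ.prod σ) g = (ρ g).prodMap (σ g) from rfl, LinearMap.trace_prodMap']
  funext g
  rw [h1, detChar_eq_of_rep, Pi.mul_apply, detChar_eq_of_rep, detChar_eq_of_rep,
    show (ρ.prod σ) g = (ρ g).prodMap (σ g) from rfl, LinearMap.det_prodMap]

theorem detChar_zero : detChar (0 : G → ℂ) = 1 := by
  have h1 : (0 : G → ℂ) = (1 : Representation ℂ G (Fin 0 → ℂ)).character := by
    ext g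
    have : (1 : Representation ℂ G (Fin 0 → ℂ)) g = 0 := Subsingleton.elim _ _
    simp [Representation.character, this]
  funext g
  rw [h1, detChar_eq_of_rep]
  simp

theorem detChar_nsmul (n : ℕ) {χ : G → ℂ} (hχ : IsCharacter G χ) :
    detChar ((n : ℂ) • χ) = detChar χ ^ n := by
  induction n with
  | zero => simpa using detChar_zero
  | succ n ih =>
    have : ((n + 1 : ℕ) : ℂ) • χ = (n : ℂ) • χ + χ := by
      push_cast
      rw [add_smul, one_smul]
    rw [this, detChar_add (IsCharacter.nsmul n hχ) hχ, ih, pow_succ]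

theorem detChar_sum {ι : Type*} (s : Finset ι) {χ : ι → G → ℂ}
    (h : ∀ i ∈ s, IsCharacter G (χ i)) : detChar (∑ i ∈ s, χ i) = ∏ i ∈ s, detChar (χ i) := by
  classical
  induction s using Finset.induction_on with
  | empty => simpa using detChar_zero
  | insert a s ha ih =>
    rw [Finset.sum_insert ha, Finset.prod_insert ha,
      detChar_add (h a (Finset.mem_insert_self _ _))
        (IsCharacter.sum s fun i hi => h i (Finset.mem_insert_of_mem hi)),
      ih fun i hi => h i (Finset.mem_insert_of_mem hi)]

theorem detChar_eq_one_of_perfect (hperf : commutator G = ⊤) {χ : G → ℂ}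
    (hχ : IsCharacter G χ) (g : G) : detChar χ g = 1 := by
  obtain ⟨δ, hδ⟩ := exists_hom_detChar hχ
  rw [hδ]
  have h1 : commutator G ≤ δ.ker := Abelianization.commutator_subset_ker δ
  rw [hperf] at h1
  have := MonoidHom.mem_ker.mp (h1 (Subgroup.mem_top g))
  simp [this]

end

end Cfsg.Agent.Lib.Helper24
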