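import Mathlib
import Cfsg.Agent.Lib.Helper24.CharInt

/-!
# Character values lie in cyclotomic fields
-/

set_option autoImplicit false
open Cfsg

namespace Cfsg.Agent.Lib.Helper24

open Cfsg.Agent.Lib.Helper2 Cfsg.Agent.Lib.Helper6
open scoped ComplexConjugate

variable {G : Type*} [Group G] [Finite G]

/-- If `g ^ m = 1` then `χ(g)` lies in the `m`-th cyclotomic field. -/
theorem char_mem_adjoin {χ : G → ℂ} (hχ : IsCharacter G χ) {g : G} {m : ℕ} (hm : m ≠ 0)
    (hg : g ^ m = 1) :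
    χ g ∈ IntermediateField.adjoin ℚ ({Complex.exp (2 * Real.pi * Complex.I / (m : ℂ))} : Set ℂ) := by
  obtain ⟨d, ρ, rfl⟩ := hχ
  obtain ⟨ζ, hζ, h⟩ := char_zpow_eq_sum ρ g
  have h1 : ρ.character g = ∑ i, ζ i := by
    have := h 1
    simpa using this
  rw [h1]
  refine sum_mem fun i _ => ?_
  have hζm : ζ i ^ m = 1 := by
    obtain ⟨t, ht⟩ := orderOf_dvd_of_pow_eq_one hg
    rw [ht, pow_mul, hζ i, one_pow]
  have : NeZero m := ⟨hm⟩
  obtain ⟨k, -, hk⟩ := (Complex.isPrimitiveRoot_exp m hm).eq_pow_of_pow_eq_one hζm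
  rw [← hk]
  exact pow_mem (IntermediateField.mem_adjoin_simple_self ℚ _) k

theorem conj_char_mem_adjoin {χ : G → ℂ} (hχ : IsCharacter G χ) {g : G} {m : ℕ} (hm : m ≠ 0)
    (hg : g ^ m = 1) :
    conj (χ g) ∈
      IntermediateField.adjoin ℚ ({Complex.exp (2 * Real.pi * Complex.I / (m : ℂ))} : Set ℂ) := by
  rw [← IsCharacter.apply_inv hχ]
  exact char_mem_adjoin hχ hm (by rw [inv_pow, hg, inv_one])

end Cfsg.Agent.Lib.Helper24
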