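import Cfsg.Agent.Lib.Helper24.FongPSol
import Cfsg.Agent.Lib.Helper13.Clifford4
import Cfsg.Agent.Lib.Lead.GlaubL

/-!
# Heights in blocks of `p`-solvable groups

The height of a character in a block of a `p`-solvable group is at most the exponent of `p` in
`|D : Z(D)|`, `D` a defect group.
-/

set_option autoImplicit false

namespace Cfsg.Agent.Lib.Helper24

open Cfsg Cfsg.Agent.Lib.Helper2 Cfsg.Agent.Lib.Helper6
open scoped ComplexConjugate Classical

attribute [local instance] irrFintype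

universe u

section grp

variable {G : Type*} [Group G]

/-- the centre of `Q`, as a subgroup of `G` -/
def zSub (Q : Subgroup G) : Subgroup G := Q ⊓ Subgroup.centralizer (Q : Set G)

theorem conj_mem_zSub {Q : Subgroup G} {g : G} (hg : g ∈ Subgroup.normalizer (Q : Set G)) {a : G}
    (ha : a ∈ zSub Q) : g * a * g⁻¹ ∈ zSub Q := by
  refine ⟨(Subgroup.mem_normalizer_iff.mp hg a).mp ha.1, ?_⟩
  show g * a * g⁻¹ ∈ Subgroup.centralizer (Q : Set G)
  rw [Subgroup.mem_centralizer_iff]
  intro q hq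
  have hq' : g⁻¹ * q * g ∈ Q := by
    have := (Subgroup.mem_normalizer_iff.mp (Subgroup.inv_mem _ hg) q).mp hq
    simpa using this
  have h1 := (Subgroup.mem_centralizer_iff.mp ha.2) _ hq'
  calc q * (g * a * g⁻¹) = g * ((g⁻¹ * q * g) * a) * g⁻¹ := by group
    _ = g * (a * (g⁻¹ * q * g)) * g⁻¹ := by rw [h1]
    _ = g * a * g⁻¹ * q := by group

theorem normal_sup_zSub {N Q : Subgroup G} [hN : N.Normal]
    (h : Subgroup.normalizer (Q : Set G) ⊔ N = ⊤) : (N ⊔ zSub Q).Normal := by
  rw [← Subgroup.normalizer_eq_top_iff, eq_top_iff, ← h]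
  refine sup_le ?_ (le_trans le_sup_left Subgroup.le_normalizer)
  have aux : ∀ g ∈ Subgroup.normalizer (Q : Set G), ∀ k ∈ N ⊔ zSub Q,
      g * k * g⁻¹ ∈ N ⊔ zSub Q := by
    intro g hg k hk
    obtain ⟨n, hn, a, ha, rfl⟩ := Subgroup.mem_sup_of_normal_left.mp hk
    have e : g * (n * a) * g⁻¹ = (g * n * g⁻¹) * (g * a * g⁻¹) := by group
    rw [e]
    exact Subgroup.mul_mem _ (Subgroup.mem_sup_left (hN.conj_mem n hn g))
      (Subgroup.mem_sup_right (conj_mem_zSub hg ha))
  intro g hg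
  rw [Subgroup.mem_normalizer_iff]
  intro k
  refine ⟨aux g hg k, fun hk => ?_⟩
  have := aux g⁻¹ (Subgroup.inv_mem _ hg) _ hk
  have e : g⁻¹ * (g * k * g⁻¹) * g⁻¹⁻¹ = k := by group
  rwa [e] at this

theorem commutator_mem_of_mem_sup_zSub {N Q : Subgroup G} [hN : N.Normal] {x y : G}
    (hx : x ∈ N ⊔ zSub Q) (hy : y ∈ N ⊔ zSub Q) : x * y * x⁻¹ * y⁻¹ ∈ N := by
  obtain ⟨n, hn, a, ha, rfl⟩ := Subgroup.mem_sup_of_normal_left.mp hx
  obtain ⟨m, hm, b, hb, rfl⟩ := Subgroup.mem_sup_of_normal_left.mp hy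
  rw [← QuotientGroup.eq_one_iff]
  have hn' : (QuotientGroup.mk n : G ⧸ N) = 1 := (QuotientGroup.eq_one_iff n).mpr hn
  have hm' : (QuotientGroup.mk m : G ⧸ N) = 1 := (QuotientGroup.eq_one_iff m).mpr hm
  have hab : a * b = b * a := ((Subgroup.mem_centralizer_iff.mp hb.2) a ha.1)
  simp only [QuotientGroup.mk_mul, QuotientGroup.mk_inv, hn', hm', one_mul]
  rw [← QuotientGroup.mk_mul, hab, QuotientGroup.mk_mul]
  group

theorem index_center_congr {A B : Type*} [Group A] [Group B] [Finite A] (e : A ≃* B) :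
    (Subgroup.center A).index = (Subgroup.center B).index := by
  have : Finite B := Finite.of_equiv A e.toEquiv
  have h1 := Subgroup.index_mul_card (Subgroup.center A)
  have h2 := Subgroup.index_mul_card (Subgroup.center B)
  rw [← Nat.card_congr e.toEquiv, ← Nat.card_congr (Subgroup.centerCongr e).toEquiv, ← h1] at h2
  exact (Nat.eq_of_mul_eq_mul_right Nat.card_pos h2).symm

theorem index_center_map {A B : Type*} [Group A] [Group B] [Finite A] (f : A →* B)
    (hf : Function.Injective f) (D : Subgroup A) :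
    (Subgroup.center ↥(D.map f)).index = (Subgroup.center ↥D).index :=
  (index_center_congr (D.equivMapOfInjective f hf)).symm

theorem index_sup_zSub_le [Finite G] {p : ℕ} [Fact p.Prime] (N : Subgroup G) {L : Subgroup G}
    (P : Sylow p G)
    (hcent : Subgroup.centralizer (((P : Subgroup G) ⊓ L : Subgroup G) : Set G) ≤ L) :
    ((N ⊔ zSub ((P : Subgroup G) ⊓ L)).index).factorization p ≤
      ((Subgroup.center ↥(P : Subgroup G)).index).factorization p := by
  have hle : (Subgroup.center ↥(P : Subgroup G)).map (P : Subgroup G).subtype ≤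
      N ⊔ zSub ((P : Subgroup G) ⊓ L) := by
    refine le_trans ?_ le_sup_right
    rintro _ ⟨z, hz, rfl⟩
    have hc : ((P : Subgroup G).subtype z) ∈
        Subgroup.centralizer (((P : Subgroup G) ⊓ L : Subgroup G) : Set G) := by
      rw [Subgroup.mem_centralizer_iff]
      intro q hq
      have := (Subgroup.mem_center_iff.mp hz) ⟨q, hq.1⟩
      exact congrArg Subtype.val this
    exact ⟨⟨z.2, hcent hc⟩, hc⟩
  have hd := Subgroup.index_dvd_of_le hle
  rw [Subgroup.index_map_subtype] at hd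
  have h0 : (Subgroup.center ↥(P : Subgroup G)).index * (P : Subgroup G).index ≠ 0 :=
    mul_ne_zero Subgroup.index_ne_zero_of_finite Subgroup.index_ne_zero_of_finite
  have h1 := (Nat.factorization_le_iff_dvd Subgroup.index_ne_zero_of_finite h0).mpr hd p
  rw [Nat.factorization_mul Subgroup.index_ne_zero_of_finite Subgroup.index_ne_zero_of_finite,
    Finsupp.add_apply, Nat.factorization_eq_zero_of_not_dvd P.not_dvd_index, add_zero] at h1
  exact h1

end grp

section deg

variable {G : Type*} [Group G] [Fintype G]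

/-- over an invariant character of a normal Hall subgroup with abelian quotient, every
irreducible character is an extension -/
theorem degree_eq_of_abelian_coprime (N : Subgroup G) [hN : N.Normal]
    (hcop : (Nat.card N).Coprime N.index) (hab : ∀ x y : G, x * y * x⁻¹ * y⁻¹ ∈ N)
    (θ : IrrCharacter N) (hinv : Cfsg.Agent.Lib.Lead.Glaub.GInv N (θ : N → ℂ))
    (η : IrrCharacter G) (hc : classInner (fun n : N => (η : G → ℂ) n) (θ : N → ℂ) ≠ 0) :
    (η : G → ℂ) 1 = (θ : N → ℂ) 1 := by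
  obtain ⟨χ, hχ, hext⟩ := Cfsg.Agent.Lib.Lead.Glaub.exists_ext N hcop θ hinv
  have hinv' : ∀ g : G, conjFun N g (θ : N → ℂ) = θ :=
    fun g => (Cfsg.Agent.Lib.Helper13.stmtInv_iff N _ g).mp (hinv g)
  have h1 : classInner (indFun N (θ : N → ℂ)) χ ≠ 0 := by
    rw [frobenius_reciprocity N _ _ (irr_isClassFunction hχ)]
    have : (fun n : N => χ n) = θ := funext hext
    rw [this, classInner_irr θ.2 θ.2, if_pos rfl]
    exact one_ne_zero
  have h2 : classInner (indFun N (θ : N → ℂ)) (η : G → ℂ) ≠ 0 := by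
    rw [frobenius_reciprocity N _ _ (irr_isClassFunction η.2), ← classInner_conj_symm,
      map_ne_zero]
    exact hc
  obtain ⟨β, -, hβ1, -, hβ⟩ := Cfsg.Agent.Lib.Helper13.exists_linear_of_abelian_quotient N θ.2
    hinv' hab hχ η.2 h1 h2
  rw [hβ, Pi.mul_apply, hβ1, one_mul]
  exact hext 1

theorem degree_dvd_of_abelian_layer {N K : Subgroup G} [hN : N.Normal] [hK : K.Normal]
    (hNK : N ≤ K) (hcop : (Nat.card N).Coprime (N.relIndex K))
    (hab : ∀ x ∈ K, ∀ y ∈ K, x * y * x⁻¹ * y⁻¹ ∈ N) (θ : IrrCharacter N)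
    (hinv : ∀ (g : G) (n : N), (θ : N → ℂ) ⟨g * n * g⁻¹, hN.conj_mem n n.2 g⟩ = (θ : N → ℂ) n)
    (χ : IrrCharacter G) (hc : classInner (fun n : N => (χ : G → ℂ) n) (θ : N → ℂ) ≠ 0) :
    charDegree (χ : G → ℂ) ∣ charDegree (θ : N → ℂ) * K.index := by
  have hchar : IsCharacter K ((χ : G → ℂ) ∘ K.subtype) :=
    IsCharacter.restrict K (IsIrrCharacter.isCharacter χ.2)
  obtain ⟨η, h2, h3⟩ := (constituent_trans (Subgroup.inclusion hNK) hchar θ).mp hc
  have k1 := Cfsg.Agent.S0887.result K (χ : G → ℂ) χ.2 (η : K → ℂ) η.2 (by convert h2; rfl)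
    (charDegree (χ : G → ℂ)) (charDegree (η : K → ℂ))
    (charDegree_cast (IsIrrCharacter.isCharacter χ.2)).symm
    (charDegree_cast (IsIrrCharacter.isCharacter η.2)).symm
  obtain ⟨e, he⟩ : ∃ e : ↥(N.subgroupOf K) ≃* ↥N, e = Subgroup.subgroupOfEquivOfLe hNK :=
    ⟨_, rfl⟩
  have h4 : classInner (fun n : ↥(N.subgroupOf K) => (η : K → ℂ) n)
      ((irrMap e θ : IrrCharacter ↥(N.subgroupOf K)) : ↥(N.subgroupOf K) → ℂ) ≠ 0 := by
    rw [irrMap_coe]
    have e1 : (fun n : ↥(N.subgroupOf K) => (η : K → ℂ) n) =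
        ((η : K → ℂ) ∘ Subgroup.inclusion hNK) ∘ e := by
      ext n
      rw [he]
      rfl
    rw [e1, classInner_comp_equiv']
    exact h3
  have h5 : (η : K → ℂ) 1 = (θ : N → ℂ) 1 := by
    have := degree_eq_of_abelian_coprime (N.subgroupOf K)
      (by
        rw [Nat.card_congr e.toEquiv]
        exact hcop)
      (by
        intro x y
        rw [Subgroup.mem_subgroupOf]
        exact hab x x.2 y y.2)
      (irrMap e θ)
      (by
        intro g n
        rw [irrMap_apply, irrMap_apply, ← hinv (g : G) (e n)]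
        apply congrArg
        apply Subtype.ext
        rw [he]
        rfl)
      η (by convert h4)
    rw [this, irrMap_apply, map_one]
  have h6 : charDegree (η : K → ℂ) = charDegree (θ : N → ℂ) := by
    have a1 := charDegree_cast (IsIrrCharacter.isCharacter η.2)
    have a2 := charDegree_cast (IsIrrCharacter.isCharacter θ.2)
    rw [h5, ← a2] at a1
    exact_mod_cast a1
  rw [← h6]
  obtain ⟨c, hc'⟩ := k1.1
  have hpos := charDegree_pos η.2
  have := k1.2
  rw [hc', Nat.mul_div_cancel_left _ hpos] at this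
  rw [hc']
  exact Nat.mul_dvd_mul_left _ this

end deg

section main

variable {M : Ideal AlgInt} {p : ℕ}

/-- the invariant case: the degree bound -/
theorem factorization_degree_le_of_invariant {G : Type*} [Group G] [Fintype G] [Fact p.Prime]
    (hsol : IsPSolvable p G) {N : Subgroup G} [hN : N.Normal] (hNdef : N = pPrimeCore p G)
    (θ : IrrCharacter N)
    (hinv : ∀ (g : G) (n : N), (θ : N → ℂ) ⟨g * n * g⁻¹, hN.conj_mem n n.2 g⟩ = (θ : N → ℂ) n)
    (χ : IrrCharacter G) (hc : classInner (fun n : N => (χ : G → ℂ) n) (θ : N → ℂ) ≠ 0)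
    (P : Sylow p G) :
    (charDegree (χ : G → ℂ)).factorization p ≤
      ((Subgroup.center ↥(P : Subgroup G)).index).factorization p := by
  have hp : p.Prime := Fact.out
  have hcop : (Nat.card N).Coprime p := by
    rw [hNdef]
    exact Cfsg.Agent.Lib.Helper8.coprime_card_pPrimeCore (G := G) p
  have hLn : (pPrimePCore p G).Normal := Cfsg.Agent.Lib.Helper9.pPrimePCore_normal p
  obtain ⟨P₀⟩ : Nonempty (Sylow p ↥(pPrimePCore p G)) := inferInstance
  obtain ⟨P₁, hP₁⟩ := P₀.exists_comap_subtype_eq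
  have hQ : (P₀ : Subgroup ↥(pPrimePCore p G)).map (pPrimePCore p G).subtype =
      (P₁ : Subgroup G) ⊓ pPrimePCore p G := by
    rw [← hP₁]
    exact Subgroup.subgroupOf_map_subtype _ _
  obtain ⟨Q, hQdef⟩ : ∃ Q : Subgroup G, Q = (P₁ : Subgroup G) ⊓ pPrimePCore p G := ⟨_, rfl⟩
  have hcent : Subgroup.centralizer (((P₁ : Subgroup G) ⊓ pPrimePCore p G : Subgroup G) : Set G) ≤
      pPrimePCore p G := by
    rw [← hQ]
    exact Cfsg.Agent.S0629.result P₀ (Cfsg.Agent.Lib.Helper29.psol_subgroup hsol _) P₀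
  have hNL : N ≤ pPrimePCore p G := by
    rw [hNdef]
    exact Cfsg.Agent.Lib.Helper9.pPrimeCore_le_pPrimePCore p
  have hsup : N ⊔ Q = pPrimePCore p G := by
    rw [sup_comm, hQdef, ← hQ]
    apply Cfsg.Agent.Lib.Helper9.sylow_map_sup_eq p _ N hNL
    intro q
    obtain ⟨x, rfl⟩ := QuotientGroup.mk_surjective q
    obtain ⟨k, hk⟩ := Cfsg.Agent.Lib.Helper9.exists_pow_mem_of_mem_pPrimePCore p x.2
    refine ⟨k, ?_⟩
    rw [← QuotientGroup.mk_pow]
    apply (QuotientGroup.eq_one_iff _).mpr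
    rw [Subgroup.mem_subgroupOf, Subgroup.coe_pow, hNdef]
    exact hk
  have hfr : Subgroup.normalizer (Q : Set G) ⊔ N = ⊤ := by
    have h1 := Sylow.normalizer_sup_eq_top P₀
    rw [hQ, ← hQdef, ← hsup] at h1
    rw [eq_top_iff, ← h1]
    exact sup_le le_sup_left (sup_le le_sup_right (le_trans Subgroup.le_normalizer le_sup_left))
  have hK : (N ⊔ zSub Q).Normal := normal_sup_zSub hfr
  have hzp : IsPGroup p ↥(zSub Q) := by
    apply P₁.isPGroup'.to_le
    rw [hQdef]
    exact le_trans inf_le_left inf_le_left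
  have hcop' : (Nat.card N).Coprime (N.relIndex (N ⊔ zSub Q)) := by
    rw [Subgroup.relIndex_sup_left]
    obtain ⟨k, hk⟩ := IsPGroup.iff_card.mp hzp
    apply Nat.Coprime.coprime_dvd_right (Subgroup.relIndex_dvd_card N (zSub Q))
    rw [hk]
    exact Nat.Coprime.pow_right k hcop
  have hd := degree_dvd_of_abelian_layer (le_sup_left : N ≤ N ⊔ zSub Q) hcop'
    (fun x hx y hy => commutator_mem_of_mem_sup_zSub hx hy) θ hinv χ hc
  have hθ0 : charDegree (θ : N → ℂ) ≠ 0 := (charDegree_pos θ.2).ne'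
  have h0 : charDegree (θ : N → ℂ) * (N ⊔ zSub Q).index ≠ 0 :=
    mul_ne_zero hθ0 Subgroup.index_ne_zero_of_finite
  have h1 := (Nat.factorization_le_iff_dvd (charDegree_pos χ.2).ne' h0).mpr hd p
  have hθp : ¬ p ∣ charDegree (θ : N → ℂ) := by
    intro h
    have h2 := h.trans (degree_dvd_card θ.2)
    exact hp.one_lt.ne' (Nat.Coprime.eq_one_of_dvd hcop.symm h2)
  rw [Nat.factorization_mul hθ0 Subgroup.index_ne_zero_of_finite, Finsupp.add_apply,
    Nat.factorization_eq_zero_of_not_dvd hθp, zero_add] at h1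
  have h2 := index_sup_zSub_le N P₁ hcent
  rw [← hQdef] at h2
  obtain ⟨g, hg⟩ := MulAction.exists_smul_eq G P₁ P
  have h3 := index_center_congr (P₁.equivSMul g)
  rw [hg] at h3
  rw [← h3]
  exact h1.trans h2

theorem invariant_of_stabilizesBlock {G : Type*} [Group G] [Fintype G] {N : Subgroup G}
    [hN : N.Normal] (θ : IrrCharacter N) (hst : ∀ x : G, StabilizesBlock N {θ} x) (g : G) (n : N) :
    (θ : N → ℂ) ⟨g * n * g⁻¹, hN.conj_mem n n.2 g⟩ = (θ : N → ℂ) n := by
  have hx : g⁻¹ ∈ Subgroup.normalizer (N : Set G) := by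
    rw [Subgroup.normalizer_eq_top_iff.mpr hN]
    exact Subgroup.mem_top _
  have hc := isConjSub_of_mem_normalizer hx
  have h1 := (stabilizesBlock_inv_iff_forall {θ} g).mp (hst g⁻¹) θ rfl (irrMap (conjIso hc) θ) (by
    intro m
    rw [irrMap_apply]
    apply congrArg
    apply Subtype.ext
    rw [conjIso_coe]
    simp)
  rw [Set.mem_singleton_iff] at h1
  conv_rhs => rw [← h1]
  rw [irrMap_apply]
  apply congrArg
  apply Subtype.ext
  rw [conjIso_coe]
  simp

theorem blockHeight_le_aux (hM : IsPModular p M) :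
    ∀ (n : ℕ) (G : Type u) [Group G] [Fintype G], Nat.card G = n → IsPSolvable p G →
    ∀ (B : Set (IrrCharacter G)), IsPBlock M B → ∀ P : Subgroup G, IsDefectGroup p M B P →
    ∀ χ ∈ B, blockHeight p B (χ : G → ℂ) ≤ ((Subgroup.center ↥P).index).factorization p := by
  have := IsPModular.isPrime hM
  have : Fact p.Prime := ⟨hM.1⟩
  have hp : p.Prime := hM.1
  intro n
  induction n using Nat.strong_induction_on with
  | _ n ih =>
  intro G _ _ hn hsol B hB P hP χ hχ
  obtain ⟨N, hNdef⟩ : ∃ N, N = pPrimeCore p G := ⟨_, rfl⟩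
  have hN : N.Normal := by
    rw [hNdef]
    exact Subgroup.sSup_normal _ (fun _ h => h.1)
  have hcop : ¬ p ∣ Nat.card N := by
    intro hd
    have h1 := Cfsg.Agent.Lib.Helper8.coprime_card_pPrimeCore (G := G) p
    rw [← hNdef] at h1
    exact hp.one_lt.ne' (Nat.Coprime.eq_one_of_dvd h1.symm hd)
  obtain ⟨θ, hθ⟩ := Cfsg.Agent.Lib.Helper6.exists_constituent N χ.2
  have hb := isPBlock_singleton_of_not_dvd hM hcop θ
  obtain ⟨T, hTdef⟩ : ∃ T, T = stabSub N {θ} := ⟨_, rfl⟩
  have hT : ∀ g, g ∈ T ↔ StabilizesBlock N {θ} g := by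
    intro g
    rw [hTdef]
    exact mem_stabSub
  have hNT : N ≤ T := by
    rw [hTdef]
    exact le_stabSub N _
  by_cases htop : T = ⊤
  · have hst : ∀ x, StabilizesBlock N {θ} x := fun x => (hT x).mp (htop ▸ Subgroup.mem_top x)
    obtain ⟨B', hB', hiff, h1, h2⟩ := fong_pSolvable hM hsol hNdef θ hst
    have hBB : B = B' := IsPBlock.eq_of_mem_of_mem hB hB' hχ ((hiff χ).mpr hθ)
    obtain ⟨S, hS⟩ := h2 P (hBB ▸ hP)
    have h3 := factorization_degree_le_of_invariant hsol hNdef θ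
      (invariant_of_stabilizesBlock θ hst) χ hθ S
    rw [hS]
    exact le_trans (Nat.sub_le _ _) h3
  · have hlt : Nat.card T < n := by
      rw [← hn]
      exact lt_of_le_of_ne (Subgroup.card_le_card_group T)
        (fun h => htop (Subgroup.eq_top_of_card_eq T h))
    obtain ⟨B', hB', hcov, hind⟩ := (fongReynolds hb hT hNT).2.2 B hB ⟨χ, hχ, θ, rfl, hθ⟩
    obtain ⟨B₁, hind₁, -, hirr, hiff⟩ := (fongReynolds hb hT hNT).1 B' hB' hcov
    obtain rfl := isInducedBlock_unique hind₁ hind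
    obtain ⟨ψ, hψ, hχψ⟩ := (hiff χ).mp hχ
    obtain ⟨hdef, hht⟩ := fongReynolds_defect hM hb hT hNT hB' hcov hind
    obtain ⟨χ', hχ', hχ'ψ, hh⟩ := hht ψ hψ
    have hχχ : χ' = χ := Subtype.ext (hχ'ψ.trans hχψ.symm)
    obtain ⟨D, hD⟩ := exists_isDefectGroup hM hB'
    have h3 := ih _ hlt T rfl (Cfsg.Agent.Lib.Helper29.psol_subgroup hsol T) B' hB' D hD ψ hψ
    obtain ⟨x, hx⟩ := isDefectGroup_exists_conj hM hB (hdef D hD) hP
    rw [hx, index_center_map _ (MulAut.conj x).injective,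
      index_center_map _ T.subtype_injective, ← hχχ, hh]
    exact h3

/-- In a `p`-solvable group, heights are at most the exponent of `p` in `|D : Z(D)|`. -/
theorem blockHeight_le_of_pSolvable (hM : IsPModular p M) {G : Type u} [Group G] [Fintype G]
    (hsol : IsPSolvable p G) {B : Set (IrrCharacter G)} (hB : IsPBlock M B) {P : Subgroup G}
    (hP : IsDefectGroup p M B P) {χ : IrrCharacter G} (hχ : χ ∈ B) :
    blockHeight p B (χ : G → ℂ) ≤ ((Subgroup.center ↥P).index).factorization p :=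
  blockHeight_le_aux hM _ G rfl hsol B hB P hP χ hχ

end main

end Cfsg.Agent.Lib.Helper24
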