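import Cfsg.Agent.Lib.Helper24.HK1
import Cfsg.Agent.Lib.Helper24.Covering

/-!
# Harris–Knörr, part 2
-/

set_option autoImplicit false
set_option linter.unusedSectionVars false
set_option linter.unusedSimpArgs false

namespace Cfsg.Agent.Lib.Helper24

open Cfsg Cfsg.Agent.Lib.Helper2 Cfsg.Agent.Lib.Helper6
open scoped ComplexConjugate Classical

attribute [local instance] irrFintype

section

variable {G : Type*} [Group G] [Fintype G] {M : Ideal AlgInt} {p : ℕ} {N : Subgroup G}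
  [hN : N.Normal]

theorem exists_unit_conv_of_cov (hM : IsPModular p M) {B : Set (IrrCharacter G)}
    (hB : IsPBlock M B) {d : Set (IrrCharacter N)} (hd : IsPBlock M d) (hcov : Cov N B d)
    {Q : Subgroup G} (hQN : Q ≤ N) (hdQ : IsDefectGroup p M d (Q.subgroupOf N)) :
    ∃ x ∈ cz Q, ¬ MemLocalIdeal M (conv (coef (B.indicator 1)) (subgroupBlockCoeff N d) x) := by
  have := IsPModular.isPrime hM
  have : Fact p.Prime := ⟨hM.1⟩
  obtain ⟨P, hP, hPN⟩ := exists_defectGroup_inf_eq hM hB hd hcov hQN hdQ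
  obtain ⟨g, hg, hsyl⟩ := isDefectGroup_iff.mp hP
  have hgu := (isDefectClass_iff.mp hg).2.1
  have hgP : g ∈ cz P := le_cen_iff.mp hsyl.le
  have hQP : Q ≤ P := hPN ▸ inf_le_left
  have hQp : IsPGroup p Q := hsyl.isPGroup.to_le hQP
  have hgQ : g ∈ cz Q := cz_anti hQP hgP
  have hcl := isClassFunction_coef (B.indicator 1)
  have hS : ∀ g, MemLocalRing M (coef (B.indicator 1) g) :=
    mem_ZS.mp (IsPBlock.indicator_mem_ZS hB)
  have hsum' : ∑ e' : {e : Set (IrrCharacter N) // IsPBlock M e},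
      conv (coef (B.indicator 1)) (subgroupBlockCoeff N e'.1) g = coef (B.indicator 1) g := by
    rw [← Finset.sum_apply, ← conv_sum', sum_sbc_blocks, conv_delta]
  obtain ⟨f, hne⟩ : ∃ f : {e : Set (IrrCharacter N) // IsPBlock M e},
      ¬ MemLocalIdeal M (conv (coef (B.indicator 1)) (subgroupBlockCoeff N f.1) g) := by
    by_contra hcon
    push Not at hcon
    apply hgu
    rw [← hsum']
    exact MemLocalIdeal.sum _ fun f _ => hcon f
  have hcovf : Cov N B f.1 := by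
    apply exists_over_of_conv_ne_zero
    rw [← conv_comm_of_class hcl]
    intro h0
    apply hne
    rw [h0]
    exact memLocalIdeal_zero
  obtain ⟨t, ht, hdf⟩ := exists_conjSet_eq_of_cov hB hd f.2 hcov hcovf
  have hx₀ : ¬ MemLocalIdeal M
      (conv (coef (B.indicator 1)) (subgroupBlockCoeff N d) (t * g * t⁻¹)) := by
    have e1 : conv (coef (B.indicator 1)) (subgroupBlockCoeff N d) =
        cjF t (conv (coef (B.indicator 1)) (subgroupBlockCoeff N f.1)) := by
      rw [cjF_conv, cjF_of_class hcl, hdf, sbc_conjSet]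
    have e2 : t⁻¹ * (t * g * t⁻¹) * t = g := by group
    rw [e1, cjF_apply, e2]
    exact hne
  have hx₀c : t * g * t⁻¹ ∈ cz (cj t Q) := by
    rw [Subgroup.mem_centralizer_iff]
    intro q hq
    rw [SetLike.mem_coe, mem_cj] at hq
    have h2 := Subgroup.mem_centralizer_iff.mp hgQ _ hq
    calc q * (t * g * t⁻¹) = t * ((t⁻¹ * q * t) * g) * t⁻¹ := by group
      _ = t * (g * (t⁻¹ * q * t)) * t⁻¹ := by rw [h2]
      _ = t * g * t⁻¹ * q := by group
  have hQ₁N : cj t Q ≤ N := by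
    intro q hq
    rw [mem_cj] at hq
    have := hN.conj_mem _ (hQN hq) t
    have e : t * (t⁻¹ * q * t) * t⁻¹ = q := by group
    rwa [e] at this
  obtain ⟨s', hs', hsum2⟩ := conv_eq_sum_centralizer_add hM (isPGroup_cj hQp t)
    (fun u _ g => hcl g u) (fun u hu g => sbc_conj_mem N d (hQ₁N hu) g) hS
    (sbc_memLocalRing N hd) hx₀c
  obtain ⟨y, hy, hyu⟩ : ∃ y ∈ cz (cj t Q),
      ¬ MemLocalIdeal M (subgroupBlockCoeff N d (y⁻¹ * (t * g * t⁻¹))) := by
    by_contra hcon
    push Not at hcon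
    apply hx₀
    rw [hsum2]
    refine MemLocalIdeal.add (MemLocalIdeal.sum _ fun x _ => ?_)
      (MemLocalIdeal.mul_right (memLocalIdeal_p hM) hs')
    split_ifs with hx
    · exact MemLocalIdeal.mul_left (hS _) (hcon x hx)
    · exact memLocalIdeal_zero
  obtain ⟨D, hD, hle⟩ := exists_defectGroup_ge_of_unit hM hd hyu (isPGroup_cj hQp t)
    ((cz (cj t Q)).mul_mem ((cz (cj t Q)).inv_mem hy) hx₀c)
  have hDeq : (cj t Q).subgroupOf N = D := by
    apply Subgroup.eq_of_le_of_card_ge hle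
    rw [IsDefectGroup.card_eq hM hd hD, ← IsDefectGroup.card_eq hM hd hdQ,
      (isCopy_subgroupOf hQN).card_eq, (isCopy_subgroupOf hQ₁N).card_eq, card_cj]
  obtain ⟨n, hn⟩ := isDefectGroup_exists_conj hM hd hdQ hD
  refine ⟨(n : G)⁻¹ * (t * g * t⁻¹) * n, ?_, ?_⟩
  · rw [Subgroup.mem_centralizer_iff]
    intro q hq
    have h1 : (n : G) * q * (n : G)⁻¹ ∈ cj t Q := by
      have h3 : (n * ⟨q, hQN hq⟩ * n⁻¹ : N) ∈ cj n (Q.subgroupOf N) := by
        rw [mem_cj, Subgroup.mem_subgroupOf]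
        have e : n⁻¹ * (n * ⟨q, hQN hq⟩ * n⁻¹ : N) * n = ⟨q, hQN hq⟩ := by group
        rw [e]
        exact hq
      rw [← hn, ← hDeq, Subgroup.mem_subgroupOf] at h3
      exact h3
    have h2 := Subgroup.mem_centralizer_iff.mp hx₀c _ h1
    calc q * ((n : G)⁻¹ * (t * g * t⁻¹) * n)
        = (n : G)⁻¹ * (((n : G) * q * (n : G)⁻¹) * (t * g * t⁻¹)) * n := by group
      _ = (n : G)⁻¹ * ((t * g * t⁻¹) * ((n : G) * q * (n : G)⁻¹)) * n := by rw [h2]
      _ = (n : G)⁻¹ * (t * g * t⁻¹) * n * q := by group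
  · have e1 : cjF (n : G) (conv (coef (B.indicator 1)) (subgroupBlockCoeff N d)) =
        conv (coef (B.indicator 1)) (subgroupBlockCoeff N d) := by
      rw [cjF_conv, cjF_of_class hcl,
        (cjF_eq_iff (n : G) _).mpr fun g => sbc_conj_mem N d n.2 g]
    rw [← cjF_apply (n : G) (conv (coef (B.indicator 1)) (subgroupBlockCoeff N d)), e1]
    exact hx₀

omit hN in
theorem sbc_congr_of_in (hM : IsPModular p M) {Q : Subgroup G} (hQ : IsPGroup p Q) (hQN : Q ≤ N)
    {d : Set (IrrCharacter N)} {e : Set (IrrCharacter ↥(nor Q ⊓ N))}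
    (heQ : IsDefectGroup p M e (Q.subgroupOf (nor Q ⊓ N)))
    (hed : IsInducedBlockIn M N (nor Q ⊓ N) e d) :
    ∀ x ∈ cz Q, MemLocalIdeal M (subgroupBlockCoeff N d x - subgroupBlockCoeff (nor Q ⊓ N) e x) := by
  have := IsPModular.isPrime hM
  have : Fact p.Prime := ⟨hM.1⟩
  have hcopy : IsCopy ((nor Q ⊓ N).subgroupOf N) (nor Q ⊓ N) := isCopy_subgroupOf inf_le_right
  obtain ⟨e', rfl⟩ := exists_upSet_eq hcopy e
  have hind := isInducedBlock_of_in hcopy hed
  have hD := isDefectGroup_of_upSet hcopy heQ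
  have hnor : Subgroup.normalizer ((Q.subgroupOf N : Subgroup N) : Set N) ≤
      (nor Q ⊓ N).subgroupOf N := by
    intro x hx
    rw [Subgroup.mem_subgroupOf]
    exact ⟨((isCopy_subgroupOf hQN).mem_normalizer_iff x).mp hx, x.2⟩
  have hQ' : IsPGroup p (Q.subgroupOf N) := ((isCopy_subgroupOf hQN).isPGroup_iff).mpr hQ
  obtain ⟨-, hc⟩ := brauer_link hM hQ' hnor hD hind
  intro x hx
  by_cases hxN : x ∈ N
  · have := hc ⟨x, hxN⟩ (((isCopy_subgroupOf hQN).mem_centralizer_iff ⟨x, hxN⟩).mpr hx)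
    rw [sbc_mem N d hxN, sbc_upSet, extendByZero_mem N _ hxN]
    exact this
  · rw [sbc_not_mem _ _ hxN, sbc_not_mem _ _ (fun h => hxN (Subgroup.mem_inf.mp h).2), sub_zero]
    exact memLocalIdeal_zero

omit hN in
theorem om_res_in_sub [M.IsPrime] {L : Subgroup G} (hLN : L ≤ N) {e : Set (IrrCharacter L)}
    {d : Set (IrrCharacter N)} (hed : IsInducedBlockIn M N L e d) {ξ : IrrCharacter L}
    (hξ : ξ ∈ e) {θ : IrrCharacter N} (hθ : θ ∈ d) {F : N → ℂ} (hF : IsClassFunction N F)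
    (hS : ∀ n, MemLocalRing M (F n)) :
    MemLocalIdeal M (om (ξ : L → ℂ) (fun l : L => F ⟨l, hLN l.2⟩) - om (θ : N → ℂ) F) := by
  have hcopy : IsCopy (L.subgroupOf N) L := isCopy_subgroupOf hLN
  obtain ⟨e', rfl⟩ := exists_upSet_eq hcopy e
  obtain ⟨ξ', hξ', rfl⟩ := hξ
  have hind := isInducedBlock_of_in hcopy hed
  have h := om_res_sub_memLocalIdeal (L.subgroupOf N) (irr_isClassFunction θ.2)
    (hind.2.2 ξ' hξ' θ hθ) hF hS
  rw [← om_comp_equiv' (copyIso hcopy)] at h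
  exact h

theorem cov_of_induced [M.IsPrime] {H : Subgroup G} {d : Set (IrrCharacter N)}
    {e : Set (IrrCharacter ↥(H ⊓ N))} (hed : IsInducedBlockIn M N (H ⊓ N) e d)
    {c : Set (IrrCharacter H)} {B : Set (IrrCharacter G)} (hind : IsInducedBlock M H c B)
    (hcov : ∃ ψ ∈ c, ∃ ξ ∈ e, classInner ((ψ : H → ℂ) ∘ Subgroup.inclusion inf_le_left)
      (ξ : ↥(H ⊓ N) → ℂ) ≠ 0) : Cov N B d := by
  obtain ⟨ψ, hψ, ξ, hξ, hne⟩ := hcov
  apply covers_of_congr N hind.2.1 hed.2.1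
  intro χ hχ θ hθ n
  have h1 := hind.2.2 ψ hψ χ hχ n
  rw [inducedCentralChar_eq_om] at h1
  have h2 := om_eq_of_constituent (Subgroup.inclusion inf_le_left)
    (Subgroup.inclusion_injective _) ψ.2 ξ hne (y := fun h : H => classInd (n : G) h)
    (isClassFunction_res H (isClassFunction_classInd _)) (by
      intro t ht
      show classInd (n : G) (t : G) = 0
      rw [classInd_apply, if_neg]
      intro hc
      apply ht
      obtain ⟨u, hu⟩ := isConj_iff.mp hc
      exact ⟨⟨t, t.2, hu ▸ hN.conj_mem _ n.2 u⟩, rfl⟩)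
  have h3 := om_res_in_sub inf_le_right hed hξ hθ (F := fun m : N => classInd (n : G) m)
    (isClassFunction_res N (isClassFunction_classInd _))
    (fun m => Cfsg.Agent.Lib.Helper6.memLocalRing_classInd _ _)
  rw [inducedCentralChar_eq_om]
  rw [h2] at h1
  have := MemLocalIdeal.sub h3 h1
  convert this using 1
  have e1 : ((fun h : H => classInd (n : G) (h : G)) ∘ Subgroup.inclusion inf_le_left) =
      (fun l : ↥(H ⊓ N) => classInd (n : G) ((⟨l, (Subgroup.mem_inf.mp l.2).2⟩ : N) : G)) := rfl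
  rw [e1]
  ring

end

end Cfsg.Agent.Lib.Helper24
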