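import Cfsg.Agent.Lib.Helper24.HK2

/-!
# Harris–Knörr, part 3: existence and uniqueness of the correspondent
-/

set_option autoImplicit false
set_option linter.unusedSectionVars false
set_option linter.unusedSimpArgs false

namespace Cfsg.Agent.Lib.Helper24

open Cfsg Cfsg.Agent.Lib.Helper2 Cfsg.Agent.Lib.Helper6
open scoped ComplexConjugate Classical

attribute [local instance] irrFintype

section

variable {G : Type*} [Group G] [Fintype G] {M : Ideal AlgInt} {p : ℕ} {N : Subgroup G}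
  [hN : N.Normal]

theorem normal_inf_subgroupOf (H : Subgroup G) : ((H ⊓ N).subgroupOf H).Normal := by
  rw [Subgroup.inf_subgroupOf_left]
  infer_instance

omit hN in
/-- covering in the form of the statement versus covering inside `H` -/
theorem cov_copy_iff {H : Subgroup G} (c : Set (IrrCharacter H))
    (e'' : Set (IrrCharacter ↥((H ⊓ N).subgroupOf H))) :
    (∃ ψ ∈ c, ∃ ξ ∈ upSet (isCopy_subgroupOf (inf_le_left : H ⊓ N ≤ H)) e'',
      classInner ((ψ : H → ℂ) ∘ Subgroup.inclusion inf_le_left) (ξ : ↥(H ⊓ N) → ℂ) ≠ 0) ↔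
    Cov ((H ⊓ N).subgroupOf H) c e'' := by
  have key : ∀ (ψ : IrrCharacter H) (θ : IrrCharacter ↥((H ⊓ N).subgroupOf H)),
      classInner ((ψ : H → ℂ) ∘ Subgroup.inclusion inf_le_left)
        ((irrMap (copyIso (isCopy_subgroupOf (inf_le_left : H ⊓ N ≤ H))) θ :
          IrrCharacter ↥(H ⊓ N)) : ↥(H ⊓ N) → ℂ) =
      classInner (fun n : ↥((H ⊓ N).subgroupOf H) => (ψ : H → ℂ) n)
        (θ : ↥((H ⊓ N).subgroupOf H) → ℂ) := by
    intro ψ θ
    rw [← classInner_res_copy]
    congr 1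
  constructor
  · rintro ⟨ψ, hψ, _, ⟨θ, hθ, rfl⟩, hne⟩
    exact ⟨ψ, hψ, θ, hθ, by rwa [key] at hne⟩
  · rintro ⟨ψ, hψ, θ, hθ, hne⟩
    exact ⟨ψ, hψ, _, ⟨θ, hθ, rfl⟩, by rwa [key]⟩

theorem exists_induced_cov (hM : IsPModular p M) {Q : Subgroup G} (hQ : IsPGroup p Q)
    (hQN : Q ≤ N) {d : Set (IrrCharacter N)} (hd : IsPBlock M d)
    (hdQ : IsDefectGroup p M d (Q.subgroupOf N)) {e : Set (IrrCharacter ↥(nor Q ⊓ N))}
    (he : IsPBlock M e) (heQ : IsDefectGroup p M e (Q.subgroupOf (nor Q ⊓ N)))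
    (hed : IsInducedBlockIn M N (nor Q ⊓ N) e d) {B : Set (IrrCharacter G)} (hB : IsPBlock M B)
    (hcov : Cov N B d) :
    ∃ c : Set (IrrCharacter (nor Q)), IsInducedBlock M (nor Q) c B ∧
      ∃ ψ ∈ c, ∃ ξ ∈ e, classInner ((ψ : nor Q → ℂ) ∘ Subgroup.inclusion inf_le_left)
        (ξ : ↥(nor Q ⊓ N) → ℂ) ≠ 0 := by
  have := IsPModular.isPrime hM
  have : Fact p.Prime := ⟨hM.1⟩
  have hnorm := normal_inf_subgroupOf (N := N) (nor Q)
  have hcong := sbc_congr_of_in hM hQ hQN heQ hed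
  have hcopy : IsCopy ((nor Q ⊓ N).subgroupOf (nor Q)) (nor Q ⊓ N) := isCopy_subgroupOf inf_le_left
  obtain ⟨e'', rfl⟩ := exists_upSet_eq hcopy e
  have he'' : IsPBlock M e'' := (isPBlock_upSet_iff hcopy).mp he
  simp only [cov_copy_iff]
  have hcl := isClassFunction_coef (B.indicator 1)
  have hS : ∀ g, MemLocalRing M (coef (B.indicator 1) g) :=
    mem_ZS.mp (IsPBlock.indicator_mem_ZS hB)
  obtain ⟨x, hx, hxu⟩ := exists_unit_conv_of_cov hM hB hd hcov hQN hdQ
  obtain ⟨εh, hεh⟩ : ∃ εh : nor Q → ℂ, εh = brMap Q (nor Q) (coef (B.indicator 1)) := ⟨_, rfl⟩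
  obtain ⟨η, hη⟩ : ∃ η : nor Q → ℂ,
    η = subgroupBlockCoeff ((nor Q ⊓ N).subgroupOf (nor Q)) e'' := ⟨_, rfl⟩
  have hεcl : IsClassFunction (nor Q) εh := hεh ▸ isClassFunction_brMap le_rfl hcl
  have hεS : ∀ h, MemLocalRing M (εh h) := hεh ▸ memLocalRing_brMap hS
  have hηS : ∀ h, MemLocalRing M (η h) := hη ▸ sbc_memLocalRing _ he''
  have hεidem : ∀ h, MemLocalIdeal M (conv εh εh h - εh h) := by
    intro h
    have h1 := brMap_conv hM hQ (centralizer_le_nor Q) hcl hcl hS hS h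
    rw [coef_indicator_idem, ← hεh] at h1
    have := MemLocalIdeal.neg h1
    rwa [neg_sub] at this
  -- step 3
  have hxH : x ∈ nor Q := centralizer_le_nor Q hx
  have h3 : ¬ MemLocalIdeal M (conv εh η ⟨x, hxH⟩) := by
    intro hcon
    apply hxu
    obtain ⟨s, hs, hsum⟩ := conv_eq_sum_centralizer_add hM hQ
      (fun u _ g => hcl g u) (fun u hu g => sbc_conj_mem N d (hQN hu) g) hS
      (sbc_memLocalRing N hd) hx
    have e1 : conv εh η ⟨x, hxH⟩ = ∑ y : G, (if y ∈ cz Q then coef (B.indicator 1) y *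
        subgroupBlockCoeff (nor Q ⊓ N) (upSet hcopy e'') (y⁻¹ * x) else 0) := by
      rw [← extendByZero_mem (nor Q) (conv εh η) hxH, ext_conv, conv_apply, hη, ← sbc_upSet hcopy]
      refine Finset.sum_congr rfl fun y _ => ?_
      by_cases hy : y ∈ cz Q
      · rw [if_pos hy, extendByZero_mem _ _ (centralizer_le_nor Q hy), hεh, brMap_apply,
          if_pos hy]
      · rw [if_neg hy]
        by_cases hyH : y ∈ nor Q
        · rw [extendByZero_mem _ _ hyH, hεh, brMap_apply, if_neg hy, zero_mul]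
        · rw [extendByZero_not_mem _ _ hyH, zero_mul]
    rw [hsum]
    refine MemLocalIdeal.add ?_ (MemLocalIdeal.mul_right (memLocalIdeal_p hM) hs)
    rw [e1] at hcon
    refine (memLocalIdeal_congr ?_).mpr hcon
    rw [← Finset.sum_sub_distrib]
    refine MemLocalIdeal.sum _ fun y _ => ?_
    split_ifs with hy
    · rw [← mul_sub]
      exact MemLocalIdeal.mul_left (hS _) (hcong _ ((cz Q).mul_mem ((cz Q).inv_mem hy) hx))
    · rw [sub_zero]
      exact memLocalIdeal_zero
  -- step 4: choose the block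
  obtain ⟨c, hc⟩ : ∃ c : {c : Set (IrrCharacter (nor Q)) // IsPBlock M c},
      ¬ MemLocalIdeal M (conv (coef (c.1.indicator 1)) (conv εh η) ⟨x, hxH⟩) := by
    by_contra hcon
    push Not at hcon
    apply h3
    have e2 : extendByZero (nor Q) (conv εh η) = ∑ c : {c : Set (IrrCharacter (nor Q)) // IsPBlock M c},
        extendByZero (nor Q) (conv (coef (c.1.indicator 1)) (conv εh η)) := by
      conv_lhs => rw [← delta_conv (extendByZero (nor Q) (conv εh η)),
        ← sum_sbc_blocks (M := M) (nor Q), sum_conv']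
      refine Finset.sum_congr rfl fun c _ => ?_
      rw [sbc_eq_ext, ← ext_conv]
    have e3 := congrFun e2 x
    rw [extendByZero_mem _ _ hxH, Finset.sum_apply] at e3
    rw [e3]
    refine MemLocalIdeal.sum _ fun c _ => ?_
    rw [extendByZero_mem _ _ hxH]
    exact hcon c
  obtain ⟨γ, hγ⟩ : ∃ γ : nor Q → ℂ, γ = coef (c.1.indicator 1) := ⟨_, rfl⟩
  rw [← hγ] at hc
  have hγcl : IsClassFunction (nor Q) γ := hγ ▸ isClassFunction_coef _
  have hγS : ∀ h, MemLocalRing M (γ h) := hγ ▸ mem_ZS.mp (IsPBlock.indicator_mem_ZS c.2)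
  have hγidem : conv γ γ = γ := by rw [hγ, coef_indicator_idem]
  refine ⟨c.1, ?_, ?_⟩
  · -- induction
    obtain ⟨y, hy⟩ : ∃ y, ¬ MemLocalIdeal M (conv γ εh y) := by
      by_contra hcon
      push Not at hcon
      apply hc
      rw [← conv_assoc, conv_apply]
      exact MemLocalIdeal.sum _ fun y _ => MemLocalIdeal.mul_right (hcon y) (hηS _)
    have hidem : ∀ h, MemLocalIdeal M (conv (conv γ εh) (conv γ εh) h - conv γ εh h) := by
      have e4 : conv (conv γ εh) (conv γ εh) = conv γ (conv εh εh) := by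
        rw [conv_assoc, ← conv_assoc εh γ εh, conv_comm_of_class hεcl γ, conv_assoc γ εh εh,
          ← conv_assoc, hγidem]
      rw [e4]
      exact conv_sub_memLocalIdeal hγS hεidem
    obtain ⟨ξ, hξ⟩ := exists_om_not_memLocalIdeal hM (isClassFunction_conv hγcl hεcl)
      (memLocalRing_conv hγS hεS) hidem hy
    rw [om_conv ξ.2 hγcl hεcl, hγ, om_coef] at hξ
    have hξc : ξ ∈ c.1 := by
      by_contra hcon
      rw [Set.indicator_of_notMem hcon, zero_mul] at hξ
      exact hξ memLocalIdeal_zero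
    rw [Set.indicator_of_mem hξc, Pi.one_apply, one_mul] at hξ
    obtain ⟨B', hind⟩ := inducedBlockDefined_of_le hM hQ (le_nor Q) (centralizer_le_nor Q) le_rfl
      c.2
    obtain ⟨χ', hχ'⟩ := IsPBlock.nonempty hind.2.1
    have h2 := om_brMap_sub_om hM hQ (le_nor Q) le_rfl hind hξc hχ' hcl hS
    have h4 : χ' ∈ B := by
      by_contra hcon
      rw [om_coef, Set.indicator_of_notMem hcon, sub_zero, ← hεh] at h2
      exact hξ h2
    rw [IsPBlock.eq_of_mem_of_mem hB hind.2.1 h4 hχ']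
    exact hind
  · apply exists_over_of_conv_ne_zero
    rw [← hη, ← hγ]
    intro h0
    apply hc
    rw [← conv_assoc, conv_comm_of_class hγcl εh, conv_assoc, conv_comm_of_class hγcl η, h0]
    rw [conv_zero']
    exact memLocalIdeal_zero

end

end Cfsg.Agent.Lib.Helper24
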