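import Cfsg.Agent.Lib.Helper24.HK3

/-!
# Harris–Knörr, part 4: uniqueness of the correspondent
-/

set_option autoImplicit false
set_option linter.unusedSectionVars false
set_option linter.unusedSimpArgs false

namespace Cfsg.Agent.Lib.Helper24

open Cfsg Cfsg.Agent.Lib.Helper2 Cfsg.Agent.Lib.Helper6
open scoped ComplexConjugate Classical

attribute [local instance] irrFintype

section

variable {G : Type*} [Group G] [Fintype G] {M : Ideal AlgInt} {p : ℕ} {N : Subgroup G}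
  [hN : N.Normal]

omit hN [Fintype G] in
theorem map_inf_eq {Q : Subgroup G} (hQN : Q ≤ N) {P' : Subgroup (nor Q)}
    (h : P' ⊓ (nor Q ⊓ N).subgroupOf (nor Q) = Q.subgroupOf (nor Q)) :
    P'.map (nor Q).subtype ⊓ N = Q := by
  ext x
  constructor
  · rintro ⟨⟨y, hy, rfl⟩, hxN⟩
    have h1 : y ∈ P' ⊓ (nor Q ⊓ N).subgroupOf (nor Q) :=
      ⟨hy, Subgroup.mem_subgroupOf.mpr ⟨y.2, hxN⟩⟩
    rw [h] at h1
    exact Subgroup.mem_subgroupOf.mp h1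
  · intro hx
    have h1 : (⟨x, le_nor Q hx⟩ : nor Q) ∈ Q.subgroupOf (nor Q) := Subgroup.mem_subgroupOf.mpr hx
    rw [← h] at h1
    exact ⟨⟨_, h1.1, rfl⟩, hQN hx⟩

omit [Fintype G] in
theorem mem_nor_of_cj_eq {g : G} {Q : Subgroup G} (h : cj g Q = Q) : g ∈ nor Q := by
  have h1 := isConjSub_map g Q
  rw [show Q.map (MulAut.conj g).toMonoidHom = Q from h] at h1
  exact h1.mem_normalizer

theorem nor_le_of_inf_eq {P Q : Subgroup G} (h : P ⊓ N = Q) : nor P ≤ nor Q := by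
  intro g hg
  have h1 : cj g P = P := ((isConjSub_of_mem_normalizer hg).eq_map).symm
  apply mem_nor_of_cj_eq
  rw [← h, ← cj_inf_normal, h1]

theorem induced_cov_unique (hM : IsPModular p M) {Q : Subgroup G} (hQN : Q ≤ N)
    {e : Set (IrrCharacter ↥(nor Q ⊓ N))} (he : IsPBlock M e)
    (heQ : IsDefectGroup p M e (Q.subgroupOf (nor Q ⊓ N))) {B : Set (IrrCharacter G)}
    {c₁ c₂ : Set (IrrCharacter (nor Q))} (h₁ : IsInducedBlock M (nor Q) c₁ B)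
    (h₂ : IsInducedBlock M (nor Q) c₂ B)
    (hc₁ : ∃ ψ ∈ c₁, ∃ ξ ∈ e, classInner ((ψ : nor Q → ℂ) ∘ Subgroup.inclusion inf_le_left)
        (ξ : ↥(nor Q ⊓ N) → ℂ) ≠ 0)
    (hc₂ : ∃ ψ ∈ c₂, ∃ ξ ∈ e, classInner ((ψ : nor Q → ℂ) ∘ Subgroup.inclusion inf_le_left)
        (ξ : ↥(nor Q ⊓ N) → ℂ) ≠ 0) : c₁ = c₂ := by
  have := IsPModular.isPrime hM
  have : Fact p.Prime := ⟨hM.1⟩
  have hnorm := normal_inf_subgroupOf (N := N) (nor Q)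
  have hcopy : IsCopy ((nor Q ⊓ N).subgroupOf (nor Q)) (nor Q ⊓ N) := isCopy_subgroupOf inf_le_left
  obtain ⟨e'', rfl⟩ := exists_upSet_eq hcopy e
  have he'' : IsPBlock M e'' := (isPBlock_upSet_iff hcopy).mp he
  rw [cov_copy_iff] at hc₁ hc₂
  have hD'' := isDefectGroup_of_upSet hcopy heQ
  have hQL : Q.subgroupOf (nor Q) ≤ (nor Q ⊓ N).subgroupOf (nor Q) := by
    intro y hy
    rw [Subgroup.mem_subgroupOf] at hy ⊢
    exact ⟨y.2, hQN hy⟩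
  obtain ⟨P₁, hP₁, hi₁⟩ := exists_defectGroup_inf_eq hM h₁.1 he'' hc₁ hQL hD''
  obtain ⟨P₂, hP₂, hi₂⟩ := exists_defectGroup_inf_eq hM h₂.1 he'' hc₂ hQL hD''
  have hm₁ := map_inf_eq hQN hi₁
  have hm₂ := map_inf_eq hQN hi₂
  have hs₁ : (P₁.map (nor Q).subtype).subgroupOf (nor Q) = P₁ :=
    ((isCopy_map P₁).eq_subgroupOf).symm
  have hs₂ : (P₂.map (nor Q).subtype).subgroupOf (nor Q) = P₂ :=
    ((isCopy_map P₂).eq_subgroupOf).symm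
  have hp₁ : IsPGroup p (P₁.map (nor Q).subtype) := (by
    obtain ⟨_, _, hs⟩ := isDefectGroup_iff.mp hP₁
    exact hs.isPGroup.map _)
  have hp₂ : IsPGroup p (P₂.map (nor Q).subtype) := (by
    obtain ⟨_, _, hs⟩ := isDefectGroup_iff.mp hP₂
    exact hs.isPGroup.map _)
  obtain ⟨hB₁, -⟩ := brauer_link hM hp₁ (nor_le_of_inf_eq hm₁) (hs₁.symm ▸ hP₁) h₁
  obtain ⟨hB₂, hcg₂⟩ := brauer_link hM hp₂ (nor_le_of_inf_eq hm₂) (hs₂.symm ▸ hP₂) h₂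
  obtain ⟨g, hg⟩ := isDefectGroup_exists_conj hM h₁.2.1 hB₁ hB₂
  have hgH : g ∈ nor Q := by
    apply mem_nor_of_cj_eq
    conv_lhs => rw [← hm₁]
    rw [← cj_inf_normal, ← hg, hm₂]
  have hP₁' := isDefectGroup_cj hP₁ (⟨g, hgH⟩ : nor Q)
  have hcj : cj (⟨g, hgH⟩ : nor Q) P₁ = P₂ := by
    ext y
    rw [mem_cj, ← (isCopy_map P₁).coe_mem_iff, ← (isCopy_map P₂).coe_mem_iff, hg, mem_cj]
    rfl
  rw [hcj] at hP₁'
  obtain ⟨-, hcg₁⟩ := brauer_link hM hp₂ (nor_le_of_inf_eq hm₂) (hs₂.symm ▸ hP₁') h₁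
  exact ((Cfsg.Agent.S4670.result p M hM _ _ hp₂ (nor_le_of_inf_eq hm₂)).1 B h₁.2.1 hB₂).unique
    ⟨h₁.1, hs₂.symm ▸ hP₁', hcg₁⟩ ⟨h₂.1, hs₂.symm ▸ hP₂, hcg₂⟩

end

end Cfsg.Agent.Lib.Helper24
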