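import Mathlib
import Cfsg.Prelude.Def_Blocks
import Cfsg.Agent.Lib.Helper24.MaxPairChar
import Cfsg.Agent.Lib.Helper24.HK1

/-!
# Induction of blocks from subgroups containing the centralizer of a defect group
-/

set_option autoImplicit false
set_option linter.unusedSectionVars false

namespace Cfsg.Agent.Lib.Helper24

open Cfsg Cfsg.Agent.Lib.Helper2 Cfsg.Agent.Lib.Helper6
open scoped ComplexConjugate Classical

attribute [local instance] irrFintype

variable {G : Type*} [Group G] [Fintype G] {p : ℕ} {M : Ideal AlgInt}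

/-- the central character of a block is computed by any of its Brauer pairs -/
theorem brauerOmega_sub_om (hM : IsPModular p M) {B : Set (IrrCharacter G)} {P : Subgroup G}
    {e : Set (IrrCharacter (cz P))} (h : IsBrauerPairOf p M B P e) {ξ : IrrCharacter (cz P)}
    (hξ : ξ ∈ e) {χ : IrrCharacter G} (hχ : χ ∈ B) {z : G → ℂ} (hz : IsClassFunction G z)
    (hzS : ∀ g, MemLocalRing M (z g)) :
    MemLocalIdeal M (brauerOmega P z (ξ : cz P → ℂ) - om (χ : G → ℂ) z) := by
  have := IsPModular.isPrime hM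
  obtain ⟨ψ, hψ⟩ := exists_irr_over (Subgroup.inclusion (centralizer_le_nor P))
    (Subgroup.inclusion_injective _) ξ
  have hind := isInducedBlock_of_pair hM h hξ hψ
  have h1 := om_brMap_sub_om hM h.1.1 (le_nor P) le_rfl hind (mem_blockOf_self ψ) hχ hz hzS
  rwa [om_brMap_eq_brauerOmega (centralizer_le_nor P) le_rfl (fun n _ g => hz g n) ψ.2 ξ hψ] at h1

/-- If a Brauer pair of the block `b` of `H` is also (as a copy) a Brauer pair of `B`, then
`b^G = B`. -/
theorem isInducedBlock_of_pairCopy (hM : IsPModular p M) {H : Subgroup G}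
    {b : Set (IrrCharacter H)} {a' : BrauerPairIdx H} {a : BrauerPairIdx G} (ha : PairCopy a' a)
    (hb : IsBrauerPairOf p M b a'.1 a'.2) {B : Set (IrrCharacter G)}
    (hB : IsBrauerPairOf p M B a.1 a.2) : IsInducedBlock M H b B := by
  have := IsPModular.isPrime hM
  refine ⟨hb.2.1, hB.2.1, fun ξb hξb χ hχ g => ?_⟩
  obtain ⟨ξ', hξ'⟩ := IsPBlock.nonempty hb.1.2
  have hmem : irrMap (copyIso ha.isCopy_cz) ξ' ∈ a.2 := by
    rw [ha.eq_upSet]
    exact (mem_blockMap _ _ _).mpr hξ'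
  have h1 := brauerOmega_sub_om hM hB hmem hχ (isClassFunction_classInd g)
    (Cfsg.Agent.Lib.Helper6.memLocalRing_classInd g)
  have h2 := brauerOmega_sub_om hM hb hξ' hξb
    (isClassFunction_res H (isClassFunction_classInd g))
    (fun x => Cfsg.Agent.Lib.Helper6.memLocalRing_classInd g x)
  rw [irrMap_coe, brauerOmega_up] at h1
  rw [inducedCentralChar_eq_om, ← om_classInd (irr_isClassFunction χ.2)]
  have := MemLocalIdeal.sub h1 h2
  rwa [sub_sub_sub_cancel_left] at this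

omit [Fintype G] in
theorem IsCopy.inf {H : Subgroup G} {K₁' K₂' : Subgroup H} {K₁ K₂ : Subgroup G}
    (h₁ : IsCopy K₁' K₁) (h₂ : IsCopy K₂' K₂) : IsCopy (K₁' ⊓ K₂') (K₁ ⊓ K₂) := by
  intro g
  rw [Subgroup.mem_inf, h₁ g, h₂ g]
  constructor
  · rintro ⟨⟨hH, h1⟩, ⟨_, h2⟩⟩
    exact ⟨hH, Subgroup.mem_inf.mpr ⟨h1, h2⟩⟩
  · rintro ⟨hH, h⟩
    exact ⟨⟨hH, (Subgroup.mem_inf.mp h).1⟩, ⟨hH, (Subgroup.mem_inf.mp h).2⟩⟩

/-- If `C_G(D₀) ≤ H` for a defect group `D₀` of the block `b` of `H`, then `b^G` is defined and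
has a defect group `D ≥ D₀` with `C_D(D₀) ≤ D₀`. -/
theorem induced_of_centralizer_le (hM : IsPModular p M) {H : Subgroup G}
    {b : Set (IrrCharacter H)} (hb : IsPBlock M b) {D₀ : Subgroup H}
    (hD₀ : IsDefectGroup p M b D₀) (hC : cz (D₀.map H.subtype) ≤ H) :
    ∃ (B : Set (IrrCharacter G)) (D : Subgroup G), IsInducedBlock M H b B ∧
      IsDefectGroup p M B D ∧ D₀.map H.subtype ≤ D ∧
      D ⊓ cz (D₀.map H.subtype) ≤ D₀.map H.subtype := by
  have := IsPModular.isPrime hM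
  have : Fact p.Prime := ⟨hM.1⟩
  obtain ⟨e', he'⟩ := exists_pair_of_defectGroup hM hb hD₀
  have hmax' := isMaximalBrauerPair_of_isDefectGroup hM he' hD₀
  obtain ⟨a, ha⟩ := exists_pairCopy_up ⟨D₀, e'⟩ hC
  have haP : a.1 = D₀.map H.subtype := ha.1.eq_map
  have hpa : IsBrauerPair p M a.1 a.2 := (ha.isBrauerPair_iff).mpr he'.1
  obtain ⟨B, hB, -⟩ := existsUnique_block_of_pair hM hpa
  have hind := isInducedBlock_of_pairCopy hM ha he' hB
  obtain ⟨c, hc, hmax⟩ := exists_maximal_ge (p := p) (M := M) _ a hB rfl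
  have hD := isDefectGroup_of_maximal hM hmax
  obtain ⟨D', hD', hle⟩ := exists_defectGroup_ge_centralizer hM hmax.1.1 hc
  have h1 : IsDefectGroup p M a.2
      ((zIn D₀).comap (copyIso ha.isCopy_cz).toMonoidHom) := by
    rw [ha.eq_upSet]
    exact (isDefectGroup_blockMap_iff _ _ _).mpr (isDefectGroup_zIn_of_maximal hM hmax')
  have h2 : Nat.card D' = Nat.card (a.1 ⊓ cz a.1 : Subgroup G) := by
    rw [IsDefectGroup.card_eq hM hpa.2 hD', ← IsDefectGroup.card_eq hM hpa.2 h1,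
      card_comap_equiv, factorization_card_zIn]
    exact (ha.1.inf ha.isCopy_cz).card_eq
  have h3 : Nat.card (c.1 ⊓ cz a.1 : Subgroup G) ≤ Nat.card (a.1 ⊓ cz a.1 : Subgroup G) := by
    rw [← h2, ← card_subgroupOf_inf]
    exact Subgroup.card_le_of_le hle
  have h4 : a.1 ⊓ cz a.1 = c.1 ⊓ cz a.1 :=
    Subgroup.eq_of_le_of_card_ge (inf_le_inf_right _ (PLE.le hc)) h3
  refine ⟨B, c.1, hind, hD, haP ▸ PLE.le hc, ?_⟩
  rw [← haP, ← h4]
  exact inf_le_left

end Cfsg.Agent.Lib.Helper24
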