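import Mathlib

/-!
# Sylow-counting tools for simple groups (used for order 168)
-/

set_option autoImplicit false
set_option linter.unusedSectionVars false

namespace Cfsg.Agent.Lib.Helper24.Ord168

open scoped Pointwise

variable {G : Type*} [Group G] [Finite G]

theorem card_sylow_of (p k m : ℕ) [hp : Fact p.Prime] (h : Nat.card G = p ^ k * m) (hm : ¬ p ∣ m)
    (P : Sylow p G) : Nat.card (P : Subgroup G) = p ^ k := by
  have hm0 : m ≠ 0 := fun h0 => hm (h0 ▸ dvd_zero p)
  rw [Sylow.card_eq_multiplicity, h, Nat.factorization_mul (pow_ne_zero _ hp.out.ne_zero) hm0,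
    Nat.Prime.factorization_pow hp.out]
  simp [Nat.factorization_eq_zero_of_not_dvd hm]

theorem index_sylow_of (p k m : ℕ) [hp : Fact p.Prime] (h : Nat.card G = p ^ k * m) (hm : ¬ p ∣ m)
    (P : Sylow p G) : (P : Subgroup G).index = m := by
  have h1 := (P : Subgroup G).card_mul_index
  rw [card_sylow_of p k m h hm P, h] at h1
  exact Nat.eq_of_mul_eq_mul_left (pow_pos hp.out.pos _) h1

theorem card_normalizer_mul (p : ℕ) [hp : Fact p.Prime] (P : Sylow p G) :
    Nat.card (Subgroup.normalizer ((P : Subgroup G) : Set G)) * Nat.card (Sylow p G) =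
      Nat.card G := by
  rw [Sylow.card_eq_index_normalizer P]
  exact Subgroup.card_mul_index _

variable [IsSimpleGroup G]

/-- Burnside's transfer theorem in a simple group. -/
theorem burnside_false (p : ℕ) [hp : Fact p.Prime] (P : Sylow p G) (h1 : (P : Subgroup G) ≠ ⊥)
    (h2 : (P : Subgroup G) ≠ ⊤)
    (hP : Subgroup.normalizer ((P : Subgroup G) : Set G) ≤
      Subgroup.centralizer ((P : Subgroup G) : Set G)) : False := by
  have hc := MonoidHom.ker_transferSylow_isComplement' P hP
  rcases (MonoidHom.normal_ker (MonoidHom.transferSylow P hP)).eq_bot_or_eq_top with h | h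
  · rw [h] at hc
    exact h2 (Subgroup.isComplement'_bot_left.mp hc)
  · rw [h] at hc
    exact h1 (Subgroup.isComplement'_top_left.mp hc)

theorem card_dvd_factorial_index (H : Subgroup G) (hH : H ≠ ⊤) :
    Nat.card G ∣ (H.index).factorial := by
  have hinj : Function.Injective (MulAction.toPermHom G (G ⧸ H)) := by
    rw [← MonoidHom.ker_eq_bot_iff]
    rcases (MonoidHom.normal_ker (MulAction.toPermHom G (G ⧸ H))).eq_bot_or_eq_top with h | h
    · exact h
    · exfalso
      apply hH
      rw [eq_top_iff]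
      intro g _
      have hg : g ∈ (MulAction.toPermHom G (G ⧸ H)).ker := h ▸ Subgroup.mem_top g
      have h2 : MulAction.toPermHom G (G ⧸ H) g ((1 : G) : G ⧸ H) = ((1 : G) : G ⧸ H) := by
        rw [MonoidHom.mem_ker.mp hg]
        rfl
      have h3 : ((g * 1 : G) : G ⧸ H) = ((1 : G) : G ⧸ H) := h2
      rw [mul_one, QuotientGroup.eq, ] at h3
      have h4 : g⁻¹ ∈ H := by simpa using h3
      exact (Subgroup.inv_mem_iff H).mp h4
  have h1 := Subgroup.card_dvd_of_injective _ hinj
  rw [Nat.card_perm] at h1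
  exact h1

theorem card_sylow_ne_one (p : ℕ) [hp : Fact p.Prime] (P : Sylow p G)
    (h1 : (P : Subgroup G) ≠ ⊥) (h2 : (P : Subgroup G) ≠ ⊤) : Nat.card (Sylow p G) ≠ 1 := by
  intro h
  have hs : Subsingleton (Sylow p G) := (Nat.card_eq_one_iff_unique.mp h).1
  have hn : (P : Subgroup G).Normal := Sylow.normal_of_subsingleton P
  rcases hn.eq_bot_or_eq_top with h | h
  · exact h1 h
  · exact h2 h

/-- a Sylow subgroup of prime order whose normaliser has order `p * r` cannot be centralised by an
element of order divisible by `r` -/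
theorem prime_sylow_false (p r : ℕ) [hp : Fact p.Prime] (hr : r.Prime) (hpr : p ≠ r)
    (P : Sylow p G) (hPc : Nat.card (P : Subgroup G) = p) (h2 : (P : Subgroup G) ≠ ⊤)
    (hN : Nat.card (Subgroup.normalizer ((P : Subgroup G) : Set G)) = p * r)
    (z : G) (hz : ∀ x ∈ (P : Subgroup G), x * z = z * x) (hzr : r ∣ orderOf z) : False := by
  have h1 : (P : Subgroup G) ≠ ⊥ := by
    intro h
    rw [h, Subgroup.card_bot] at hPc
    exact hp.out.one_lt.ne hPc
  apply burnside_false p P h1 h2
  have hcyc : IsCyclic (P : Subgroup G) := isCyclic_of_prime_card hPc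
  have hPC : (P : Subgroup G) ≤ Subgroup.centralizer ((P : Subgroup G) : Set G) := by
    intro a ha
    rw [Subgroup.mem_centralizer_iff]
    intro b hb
    have hmc : IsMulCommutative (P : Subgroup G) := hcyc.isMulCommutative
    have := hmc.is_comm.comm (⟨b, hb⟩ : (P : Subgroup G)) ⟨a, ha⟩
    exact congrArg Subtype.val this
  have hzC : z ∈ Subgroup.centralizer ((P : Subgroup G) : Set G) := by
    rw [Subgroup.mem_centralizer_iff]
    intro b hb
    exact hz b hb
  have hCN : Subgroup.centralizer ((P : Subgroup G) : Set G) ≤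
      Subgroup.normalizer ((P : Subgroup G) : Set G) := Subgroup.centralizer_le_normalizer _
  have hd1 : p ∣ Nat.card (Subgroup.centralizer ((P : Subgroup G) : Set G)) := by
    have h3 := Subgroup.card_dvd_of_le hPC
    rw [hPc] at h3
    exact h3
  have hd2 : r ∣ Nat.card (Subgroup.centralizer ((P : Subgroup G) : Set G)) := by
    have h3 : orderOf (⟨z, hzC⟩ : Subgroup.centralizer ((P : Subgroup G) : Set G)) = orderOf z :=
      Subgroup.orderOf_mk z hzC
    exact hzr.trans (h3 ▸ orderOf_dvd_natCard _)
  have hd3 : p * r ∣ Nat.card (Subgroup.centralizer ((P : Subgroup G) : Set G)) :=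
    Nat.Coprime.mul_dvd_of_dvd_of_dvd ((Nat.coprime_primes hp.out hr).mpr hpr) hd1 hd2
  have hle : Nat.card (Subgroup.normalizer ((P : Subgroup G) : Set G)) ≤
      Nat.card (Subgroup.centralizer ((P : Subgroup G) : Set G)) := by
    rw [hN]
    exact Nat.le_of_dvd Nat.card_pos hd3
  exact (Subgroup.eq_of_le_of_card_ge hCN hle).ge

end Cfsg.Agent.Lib.Helper24.Ord168
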