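import Mathlib
import Cfsg.Agent.Lib.Helper24.Ord168
import Cfsg.Agent.Lib.Helper22.Basic
import Cfsg.Agent.S1003

/-!
# Elements of a simple group of order 168
-/

set_option autoImplicit false
set_option linter.unusedSectionVars false

namespace Cfsg.Agent.Lib.Helper24.Ord168

open scoped Pointwise
open Cfsg.Agent.Lib.Helper22

section gen

variable {G : Type*} [Group G] [Finite G]

theorem orderOf_eq_of_isConj {a g : G} (h : IsConj a g) : orderOf g = orderOf a := by
  obtain ⟨c, hc⟩ := isConj_iff.mp h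
  rw [← hc]
  exact MulEquiv.orderOf_eq (MulAut.conj c) a

theorem class_le (a : G) (k : ℕ) (ha : orderOf a = k) :
    (Subgroup.centralizer ({a} : Set G)).index ≤ Nat.card {g : G // orderOf g = k} := by
  rw [index_centralizer_eq_card_isConj]
  apply Nat.card_le_card_of_injective
    (fun g : {g : G // IsConj a g} => (⟨g.1, (orderOf_eq_of_isConj g.2).trans ha⟩ :
      {g : G // orderOf g = k}))
  intro x y hxy
  exact Subtype.ext (congrArg (fun u : {g : G // orderOf g = k} => u.1) hxy)

theorem two_class_le (a b : G) (k : ℕ) (ha : orderOf a = k) (hb : orderOf b = k)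
    (hab : ¬ IsConj a b) :
    (Subgroup.centralizer ({a} : Set G)).index + (Subgroup.centralizer ({b} : Set G)).index ≤
      Nat.card {g : G // orderOf g = k} := by
  rw [index_centralizer_eq_card_isConj, index_centralizer_eq_card_isConj, ← Nat.card_sum]
  apply Nat.card_le_card_of_injective
    (Sum.elim (fun g : {g : G // IsConj a g} => (⟨g.1, (orderOf_eq_of_isConj g.2).trans ha⟩ :
      {g : G // orderOf g = k}))
      (fun g : {g : G // IsConj b g} => (⟨g.1, (orderOf_eq_of_isConj g.2).trans hb⟩ :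
      {g : G // orderOf g = k})))
  rintro (x | x) (y | y) hxy
  · exact congrArg Sum.inl (Subtype.ext (congrArg (fun u : {g : G // orderOf g = k} => u.1) hxy))
  · exfalso
    have h1 : x.1 = y.1 := congrArg (fun u : {g : G // orderOf g = k} => u.1) hxy
    exact hab (x.2.trans (h1 ▸ y.2.symm))
  · exfalso
    have h1 : x.1 = y.1 := congrArg (fun u : {g : G // orderOf g = k} => u.1) hxy
    exact hab ((h1 ▸ y.2).trans x.2.symm)
  · exact congrArg Sum.inr (Subtype.ext (congrArg (fun u : {g : G // orderOf g = k} => u.1) hxy))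

theorem exists_sylow_eq_zpowers (p : ℕ) [hp : Fact p.Prime]
    (hc : ∀ P : Sylow p G, Nat.card (P : Subgroup G) = p) (y : G) (hy : orderOf y = p) :
    ∃ Q : Sylow p G, (Q : Subgroup G) = Subgroup.zpowers y := by
  have hp3 : IsPGroup p (Subgroup.zpowers y) := by
    apply IsPGroup.of_card (n := 1)
    rw [Nat.card_zpowers, hy, pow_one]
  obtain ⟨Q, hQ⟩ := hp3.exists_le_sylow
  refine ⟨Q, (Subgroup.eq_of_le_of_card_ge hQ ?_).symm⟩
  rw [hc Q, Nat.card_zpowers, hy]

variable [IsSimpleGroup G]

theorem mem_zpowers_of_commute (p r : ℕ) [hp : Fact p.Prime] (hr : r.Prime) (hpr : p ≠ r)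
    (hc : ∀ P : Sylow p G, Nat.card (P : Subgroup G) = p) (hG : p < Nat.card G)
    (hN : ∀ P : Sylow p G, Nat.card (Subgroup.normalizer ((P : Subgroup G) : Set G)) = p * r)
    (x g : G) (hx : orderOf x = p) (hg : Commute x g) : g ∈ Subgroup.zpowers x := by
  obtain ⟨P, hP⟩ := exists_sylow_eq_zpowers p hc x hx
  have h2 : (P : Subgroup G) ≠ ⊤ := by
    intro h0
    have := hc P
    rw [h0, Subgroup.card_top] at this
    omega
  rw [← hP]
  obtain ⟨C, hC⟩ : ∃ C : Subgroup G, C = Subgroup.centralizer ((P : Subgroup G) : Set G) :=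
    ⟨_, rfl⟩
  have hmemC : ∀ u : G, Commute x u → u ∈ C := by
    intro u hu
    rw [hC, Subgroup.mem_centralizer_iff]
    intro b hb
    have hb' : b ∈ Subgroup.zpowers x := hP ▸ hb
    obtain ⟨k, rfl⟩ := hb'
    exact (Commute.zpow_left hu k).eq
  have hPC : (P : Subgroup G) ≤ C := by
    intro u hu
    apply hmemC
    have hu' : u ∈ Subgroup.zpowers x := hP ▸ hu
    obtain ⟨k, rfl⟩ := hu'
    exact (Commute.refl x).zpow_right k
  have hCN : C ≤ Subgroup.normalizer ((P : Subgroup G) : Set G) :=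
    hC ▸ Subgroup.centralizer_le_normalizer _
  have hd1 : p ∣ Nat.card C := by
    have h3 := Subgroup.card_dvd_of_le hPC
    rw [hc P] at h3
    exact h3
  have hd2 : Nat.card C ∣ p * r := by
    have h3 := Subgroup.card_dvd_of_le hCN
    rw [hN P] at h3
    exact h3
  obtain ⟨k, hk⟩ := hd1
  rw [hk] at hd2
  have hkr : k ∣ r := Nat.dvd_of_mul_dvd_mul_left hp.out.pos hd2
  rcases (Nat.dvd_prime hr).mp hkr with h1 | h1
  · have hle : Nat.card C ≤ Nat.card (P : Subgroup G) := by
      rw [hk, h1, mul_one, hc P]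
    rw [Subgroup.eq_of_le_of_card_ge hPC hle]
    exact hmemC g hg
  · exfalso
    haveI : Fact r.Prime := ⟨hr⟩
    obtain ⟨z', hz'⟩ := exists_prime_orderOf_dvd_card' (G := C) r (by rw [hk, h1]; exact dvd_mul_left _ _)
    obtain ⟨z, hzC⟩ := z'
    have hz : orderOf z = r := by
      rw [← hz']
      exact (Subgroup.orderOf_mk z hzC).symm
    apply prime_sylow_false p r hr hpr P (hc P) h2 (hN P) z ?_ (by rw [hz])
    intro a ha
    rw [hC, Subgroup.mem_centralizer_iff] at hzC
    exact hzC a ha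

theorem orderOf_eq_of_dvd (p r : ℕ) [hp : Fact p.Prime] (hr : r.Prime) (hpr : p ≠ r)
    (hc : ∀ P : Sylow p G, Nat.card (P : Subgroup G) = p) (hG : p < Nat.card G)
    (hN : ∀ P : Sylow p G, Nat.card (Subgroup.normalizer ((P : Subgroup G) : Set G)) = p * r)
    (g : G) (hg : p ∣ orderOf g) : orderOf g = p := by
  have h0 : orderOf g ≠ 0 := (orderOf_pos g).ne'
  have hx : orderOf (g ^ (orderOf g / p)) = p := orderOf_pow_orderOf_div h0 hg
  have hmem := mem_zpowers_of_commute p r hr hpr hc hG hN _ g hx ((Commute.refl g).pow_left _)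
  have h1 := orderOf_dvd_of_mem_zpowers hmem
  rw [hx] at h1
  exact Nat.dvd_antisymm h1 hg

theorem card_centralizer_of_order (p r : ℕ) [hp : Fact p.Prime] (hr : r.Prime) (hpr : p ≠ r)
    (hc : ∀ P : Sylow p G, Nat.card (P : Subgroup G) = p) (hG : p < Nat.card G)
    (hN : ∀ P : Sylow p G, Nat.card (Subgroup.normalizer ((P : Subgroup G) : Set G)) = p * r)
    (x : G) (hx : orderOf x = p) : Nat.card (Subgroup.centralizer ({x} : Set G)) = p := by
  have : Subgroup.centralizer ({x} : Set G) = Subgroup.zpowers x := by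
    apply le_antisymm
    · intro g hg
      rw [Subgroup.mem_centralizer_singleton_iff] at hg
      exact mem_zpowers_of_commute p r hr hpr hc hG hN x g hx hg.symm
    · intro g hg
      obtain ⟨k, rfl⟩ := hg
      rw [Subgroup.mem_centralizer_singleton_iff]
      exact ((Commute.refl x).zpow_left k).eq
  rw [this, Nat.card_zpowers, hx]

end gen

section s168

variable {G : Type*} [Group G] [Finite G] [IsSimpleGroup G]

theorem c2 (h : Nat.card G = 168) (P : Sylow 2 G) : Nat.card (P : Subgroup G) = 8 :=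
  card_sylow_of 2 3 21 (by rw [h]; norm_num) (by norm_num) P

theorem c3 (h : Nat.card G = 168) (P : Sylow 3 G) : Nat.card (P : Subgroup G) = 3 := by
  have := card_sylow_of 3 1 56 (by rw [h]; norm_num) (by norm_num) P
  simpa using this

theorem c7 (h : Nat.card G = 168) (P : Sylow 7 G) : Nat.card (P : Subgroup G) = 7 := by
  have : Fact (Nat.Prime 7) := ⟨by norm_num⟩
  have := card_sylow_of 7 1 24 (by rw [h]; norm_num) (by norm_num) P
  simpa using this

theorem N2 (h : Nat.card G = 168) (P : Sylow 2 G) :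
    Nat.card (Subgroup.normalizer ((P : Subgroup G) : Set G)) = 8 := by
  have := card_normalizer_mul 2 P
  rw [(Cfsg.Agent.S1003.result h).1, h] at this
  omega

theorem N3 (h : Nat.card G = 168) (P : Sylow 3 G) :
    Nat.card (Subgroup.normalizer ((P : Subgroup G) : Set G)) = 3 * 2 := by
  have := card_normalizer_mul 3 P
  rw [(Cfsg.Agent.S1003.result h).2.1, h] at this
  omega

theorem N7 (h : Nat.card G = 168) (P : Sylow 7 G) :
    Nat.card (Subgroup.normalizer ((P : Subgroup G) : Set G)) = 7 * 3 := by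
  have : Fact (Nat.Prime 7) := ⟨by norm_num⟩
  have := card_normalizer_mul 7 P
  rw [(Cfsg.Agent.S1003.result h).2.2, h] at this
  omega

theorem sylow2_not_comm (h : Nat.card G = 168) (T : Sylow 2 G)
    (hcomm : ∀ a ∈ (T : Subgroup G), ∀ b ∈ (T : Subgroup G), a * b = b * a) : False := by
  have hNT : (T : Subgroup G) = Subgroup.normalizer ((T : Subgroup G) : Set G) :=
    Subgroup.eq_of_le_of_card_ge Subgroup.le_normalizer (by rw [N2 h, c2 h])
  apply burnside_false 2 T
  · intro h0
    have := c2 h T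
    rw [h0, Subgroup.card_bot] at this
    omega
  · intro h0
    have := c2 h T
    rw [h0, Subgroup.card_top, h] at this
    omega
  · intro a ha
    rw [← hNT] at ha
    rw [Subgroup.mem_centralizer_iff]
    intro b hb
    exact hcomm b hb a ha

theorem exists_sylow_eq_of_card8 (h : Nat.card G = 168) (H : Subgroup G) (hH : Nat.card H = 8) :
    ∃ T : Sylow 2 G, (T : Subgroup G) = H := by
  have hp : IsPGroup 2 H := by
    apply IsPGroup.of_card (n := 3)
    rw [hH]
    norm_num
  obtain ⟨Q, hQ⟩ := hp.exists_le_sylow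
  exact ⟨Q, (Subgroup.eq_of_le_of_card_ge hQ (by rw [c2 h Q, hH])).symm⟩

theorem orders (h : Nat.card G = 168) (g : G) :
    orderOf g = 1 ∨ orderOf g = 2 ∨ orderOf g = 3 ∨ orderOf g = 4 ∨ orderOf g = 7 := by
  have : Fact (Nat.Prime 7) := ⟨by norm_num⟩
  by_cases h7 : 7 ∣ orderOf g
  · right; right; right; right
    exact orderOf_eq_of_dvd 7 3 Nat.prime_three (by norm_num) (c7 h) (by rw [h]; norm_num) (N7 h) g h7
  by_cases h3 : 3 ∣ orderOf g
  · right; right; left
    exact orderOf_eq_of_dvd 3 2 Nat.prime_two (by norm_num) (c3 h) (by rw [h]; norm_num) (N3 h) g h3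
  have hd : orderOf g ∣ 8 * 21 := by
    have := orderOf_dvd_natCard g
    rw [h] at this
    exact this
  have hc3 : Nat.Coprime (orderOf g) 3 :=
    ((Nat.Prime.coprime_iff_not_dvd Nat.prime_three).mpr h3).symm
  have hc7 : Nat.Coprime (orderOf g) 7 :=
    ((Nat.Prime.coprime_iff_not_dvd (by norm_num)).mpr h7).symm
  have hcop : Nat.Coprime (orderOf g) 21 := Nat.Coprime.mul_right hc3 hc7
  have hd8 : orderOf g ∣ 8 := hcop.dvd_of_dvd_mul_right hd
  have h8 : orderOf g ≠ 8 := by
    intro h8
    obtain ⟨T, hT⟩ := exists_sylow_eq_of_card8 h (Subgroup.zpowers g) (by rw [Nat.card_zpowers, h8])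
    apply sylow2_not_comm h T
    intro a ha b hb
    rw [hT] at ha hb
    obtain ⟨i, rfl⟩ := ha
    obtain ⟨j, rfl⟩ := hb
    exact (((Commute.refl g).zpow_left i).zpow_right j).eq
  have hle : orderOf g ≤ 8 := Nat.le_of_dvd (by norm_num) hd8
  obtain ⟨n, hn⟩ : ∃ n, n = orderOf g := ⟨_, rfl⟩
  rw [← hn] at hd8 h8 hle ⊢
  interval_cases n <;> omega

theorem center_card (h : Nat.card G = 168) (T : Sylow 2 G) :
    Nat.card (Subgroup.center (T : Subgroup G)) = 2 := by
  have hT8 := c2 h T
  have hnt : Nontrivial (T : Subgroup G) := by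
    rw [← Finite.one_lt_card_iff_nontrivial, hT8]
    norm_num
  have hcn : Nontrivial (Subgroup.center (T : Subgroup G)) := IsPGroup.center_nontrivial T.2
  have h1 : 1 < Nat.card (Subgroup.center (T : Subgroup G)) :=
    Finite.one_lt_card_iff_nontrivial.mpr hcn
  have hq := Subgroup.card_eq_card_quotient_mul_card_subgroup (Subgroup.center (T : Subgroup G))
  rw [hT8] at hq
  obtain ⟨n, hn⟩ : ∃ n, n = Nat.card (Subgroup.center (T : Subgroup G)) := ⟨_, rfl⟩
  obtain ⟨m, hm⟩ : ∃ m, m = Nat.card ((T : Subgroup G) ⧸ Subgroup.center (T : Subgroup G)) :=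
    ⟨_, rfl⟩
  rw [← hn, ← hm] at hq
  rw [← hn] at h1 ⊢
  have hcyc : ¬ IsCyclic ((T : Subgroup G) ⧸ Subgroup.center (T : Subgroup G)) := by
    intro hc
    apply sylow2_not_comm h T
    intro a ha b hb
    have := commutative_of_cyclic_center_quotient
      (QuotientGroup.mk' (Subgroup.center (T : Subgroup G)))
      (by rw [QuotientGroup.ker_mk']) (⟨a, ha⟩ : (T : Subgroup G)) ⟨b, hb⟩
    exact congrArg Subtype.val this
  have hm1 : m ≠ 1 := by
    intro h0
    apply hcyc
    have : Subsingleton ((T : Subgroup G) ⧸ Subgroup.center (T : Subgroup G)) :=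
      (Nat.card_eq_one_iff_unique.mp (hm ▸ h0)).1
    exact isCyclic_of_subsingleton
  have hm2 : m ≠ 2 := by
    intro h0
    apply hcyc
    exact isCyclic_of_prime_card (p := 2) (hm ▸ h0)
  have hn8 : n ≤ 8 := Nat.le_of_dvd (by norm_num) ⟨m, by rw [hq, mul_comm]⟩
  have hm8 : m ≤ 8 := Nat.le_of_dvd (by norm_num) ⟨n, hq⟩
  interval_cases n <;> omega

theorem central_unique (h : Nat.card G = 168) (T : Sylow 2 G) (a b : G)
    (ha : a ∈ (T : Subgroup G)) (hb : b ∈ (T : Subgroup G)) (ha1 : a ≠ 1) (hb1 : b ≠ 1)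
    (hac : ∀ u ∈ (T : Subgroup G), u * a = a * u) (hbc : ∀ u ∈ (T : Subgroup G), u * b = b * u) :
    a = b := by
  obtain ⟨y, _, hy⟩ := (Nat.card_eq_two_iff' (1 : Subgroup.center (T : Subgroup G))).mp
    (center_card h T)
  have hmem : ∀ (c : G) (hc : c ∈ (T : Subgroup G)), (∀ u ∈ (T : Subgroup G), u * c = c * u) →
      (⟨c, hc⟩ : (T : Subgroup G)) ∈ Subgroup.center (T : Subgroup G) := by
    intro c hc hcc
    rw [Subgroup.mem_center_iff]
    intro u
    exact Subtype.ext (hcc u u.2)
  have e1 := hy ⟨⟨a, ha⟩, hmem a ha hac⟩ (fun h0 => ha1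
    (congrArg (fun u : Subgroup.center (T : Subgroup G) => ((u : (T : Subgroup G)) : G)) h0))
  have e2 := hy ⟨⟨b, hb⟩, hmem b hb hbc⟩ (fun h0 => hb1
    (congrArg (fun u : Subgroup.center (T : Subgroup G) => ((u : (T : Subgroup G)) : G)) h0))
  exact congrArg (fun u : Subgroup.center (T : Subgroup G) => ((u : (T : Subgroup G)) : G))
    (e1.trans e2.symm)

theorem exists_central_invol (h : Nat.card G = 168) (T : Sylow 2 G) :
    ∃ z ∈ (T : Subgroup G), orderOf z = 2 ∧ ∀ u ∈ (T : Subgroup G), u * z = z * u := by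
  obtain ⟨y, hy1, _⟩ := (Nat.card_eq_two_iff' (1 : Subgroup.center (T : Subgroup G))).mp
    (center_card h T)
  refine ⟨((y : (T : Subgroup G)) : G), (y : (T : Subgroup G)).2, ?_, ?_⟩
  · have h1 : orderOf y ∣ 2 := by
      have := orderOf_dvd_natCard y
      rw [center_card h T] at this
      exact this
    have h2 : orderOf y ≠ 1 := fun h0 => hy1 (orderOf_eq_one_iff.mp h0)
    have h3 : orderOf y = 2 := by
      rcases (Nat.dvd_prime Nat.prime_two).mp h1 with h4 | h4
      · exact absurd h4 h2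
      · exact h4
    have e : orderOf (((y : (T : Subgroup G)) : G)) = orderOf y := by
      rw [Subgroup.orderOf_coe, Subgroup.orderOf_coe]
    exact e.trans h3
  · intro u hu
    have := (Subgroup.mem_center_iff.mp y.2) ⟨u, hu⟩
    exact congrArg Subtype.val this

theorem card_cent_dvd8 (h : Nat.card G = 168) (t : G) (ht : orderOf t = 2 ∨ orderOf t = 4) :
    Nat.card (Subgroup.centralizer ({t} : Set G)) ∣ 8 := by
  have : Fact (Nat.Prime 7) := ⟨by norm_num⟩
  have hd : Nat.card (Subgroup.centralizer ({t} : Set G)) ∣ 8 * 21 := by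
    have := Subgroup.card_subgroup_dvd_card (Subgroup.centralizer ({t} : Set G))
    rw [h] at this
    exact this
  have key : ∀ (p r : ℕ) [Fact p.Prime], r.Prime → p ≠ r →
      (∀ P : Sylow p G, Nat.card (P : Subgroup G) = p) → p < Nat.card G →
      (∀ P : Sylow p G, Nat.card (Subgroup.normalizer ((P : Subgroup G) : Set G)) = p * r) →
      ¬ (2 ∣ p) → ¬ p ∣ Nat.card (Subgroup.centralizer ({t} : Set G)) := by
    intro p r _ hr hpr hc hG hN h2p hdvd
    obtain ⟨c', hc'⟩ := exists_prime_orderOf_dvd_card' (G := Subgroup.centralizer ({t} : Set G)) p hdvd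
    obtain ⟨c, hcC⟩ := c'
    have hco : orderOf c = p := by
      rw [← hc']
      exact (Subgroup.orderOf_mk c hcC).symm
    rw [Subgroup.mem_centralizer_singleton_iff] at hcC
    have hmem := mem_zpowers_of_commute p r hr hpr hc hG hN c t hco hcC
    have h1 := orderOf_dvd_of_mem_zpowers hmem
    rw [hco] at h1
    apply h2p
    rcases ht with ht | ht
    · rw [ht] at h1
      exact h1
    · rw [ht] at h1
      exact (by norm_num : (2 : ℕ) ∣ 4).trans h1
  have h3 := key 3 2 Nat.prime_two (by norm_num) (c3 h) (by rw [h]; norm_num) (N3 h) (by norm_num)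
  have h7 := key 7 3 Nat.prime_three (by norm_num) (c7 h) (by rw [h]; norm_num) (N7 h) (by norm_num)
  have hc3 : Nat.Coprime (Nat.card (Subgroup.centralizer ({t} : Set G))) 3 :=
    ((Nat.Prime.coprime_iff_not_dvd Nat.prime_three).mpr h3).symm
  have hc7 : Nat.Coprime (Nat.card (Subgroup.centralizer ({t} : Set G))) 7 :=
    ((Nat.Prime.coprime_iff_not_dvd (by norm_num)).mpr h7).symm
  exact (Nat.Coprime.mul_right hc3 hc7).dvd_of_dvd_mul_right hd

theorem exists_order4 (h : Nat.card G = 168) (T : Sylow 2 G) :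
    ∃ w ∈ (T : Subgroup G), orderOf w = 4 := by
  by_contra hcon
  push Not at hcon
  have hsq : ∀ a ∈ (T : Subgroup G), a * a = 1 := by
    intro a ha
    obtain ⟨k, hk⟩ := (IsPGroup.iff_orderOf.mp T.2) ⟨a, ha⟩
    have hk' : orderOf a = 2 ^ k := by
      rw [← hk]
      exact (Subgroup.orderOf_mk a ha).symm
    have h2 : orderOf a ∣ 2 := by
      rcases orders h a with h1 | h1 | h1 | h1 | h1
      · rw [h1]; norm_num
      · rw [h1]
      · exfalso
        have : (3 : ℕ) ∣ 2 ^ k := by rw [← hk', h1]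
        have := Nat.Prime.dvd_of_dvd_pow Nat.prime_three this
        omega
      · exact absurd h1 (hcon a ha)
      · exfalso
        have : (7 : ℕ) ∣ 2 ^ k := by rw [← hk', h1]
        have := Nat.Prime.dvd_of_dvd_pow (by norm_num) this
        omega
    have := orderOf_dvd_iff_pow_eq_one.mp h2
    rwa [pow_two] at this
  apply sylow2_not_comm h T
  intro a ha b hb
  have h1 := hsq a ha
  have h2 := hsq b hb
  have h3 := hsq (a * b) ((T : Subgroup G).mul_mem ha hb)
  calc a * b = a * (a * b * (a * b)) * b := by rw [h3, mul_one]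
    _ = (a * a) * (b * a) * (b * b) := by group
    _ = b * a := by rw [h1, h2, one_mul, mul_one]

end s168

end Cfsg.Agent.Lib.Helper24.Ord168
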