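import Cfsg.Agent.Lib.Helper24.PConstr1
import Cfsg.Agent.Lib.Helper24.NilExt
import Cfsg.Agent.Lib.Helper24.ClassCount

/-!
# The Glauberman correspondent through the Brauer homomorphism: uniqueness
-/

set_option autoImplicit false
set_option linter.unusedSectionVars false

namespace Cfsg.Agent.Lib.Helper24

open Cfsg Cfsg.Agent.Lib.Helper2 Cfsg.Agent.Lib.Helper6
open scoped ComplexConjugate Classical

attribute [local instance] irrFintype

section grp

variable {G : Type*} [Group G] {p : ℕ}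

theorem exists_conj_in_centralizer [Finite G] [Fact p.Prime] {K R : Subgroup G} [hK : K.Normal]
    (hcop : ¬ p ∣ Nat.card K) (hR : IsPGroup p R) {c y k₁ : G} (hc : c ∈ cz R) (hy : y ∈ cz R)
    (hk₁ : k₁ ∈ K) (h : k₁ * c * k₁⁻¹ = y) : ∃ k₀ ∈ cz R ⊓ K, k₀ * c * k₀⁻¹ = y := by
  have hcu : ∀ u ∈ R, u⁻¹ * c * u = c := by
    intro u hu
    have := Subgroup.mem_centralizer_iff.mp hc u hu
    rw [mul_assoc, ← this, ← mul_assoc, inv_mul_cancel, one_mul]
  have hyu : ∀ u ∈ R, u * y * u⁻¹ = y := by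
    intro u hu
    have := Subgroup.mem_centralizer_iff.mp hy u hu
    rw [this, mul_assoc, mul_inv_cancel, mul_one]
  let _ : MulAction R {k : G // k ∈ K ∧ k * c * k⁻¹ = y} :=
    { smul := fun u k => ⟨u * k.1 * (u : G)⁻¹, hK.conj_mem _ k.2.1 _, by
        have e : (u : G) * k.1 * (u : G)⁻¹ * c * ((u : G) * k.1 * (u : G)⁻¹)⁻¹ =
            u * (k.1 * ((u : G)⁻¹ * c * u) * k.1⁻¹) * (u : G)⁻¹ := by group
        rw [e, hcu u u.2, k.2.2, hyu u u.2]⟩
      one_smul := by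
        intro k
        apply Subtype.ext
        show ((1 : R) : G) * k.1 * ((1 : R) : G)⁻¹ = k.1
        simp
      mul_smul := by
        intro u v k
        apply Subtype.ext
        show ((u * v : R) : G) * k.1 * ((u * v : R) : G)⁻¹ =
          (u : G) * ((v : G) * k.1 * (v : G)⁻¹) * (u : G)⁻¹
        rw [Subgroup.coe_mul]
        group }
  have hcard : ¬ p ∣ Nat.card {k : G // k ∈ K ∧ k * c * k⁻¹ = y} := by
    have e : {k : G // k ∈ K ∧ k * c * k⁻¹ = y} ≃
        ↥(K ⊓ Subgroup.centralizer ({c} : Set G)) :=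
      { toFun := fun k => ⟨k₁⁻¹ * k.1, K.mul_mem (K.inv_mem hk₁) k.2.1, by
          show k₁⁻¹ * k.1 ∈ Subgroup.centralizer ({c} : Set G)
          rw [Subgroup.mem_centralizer_singleton_iff]
          have h1 : k.1 * c = y * k.1 := by
            have h0 := k.2.2
            calc k.1 * c = (k.1 * c * k.1⁻¹) * k.1 := by group
              _ = y * k.1 := by rw [h0]
          have h2 : k₁⁻¹ * y = c * k₁⁻¹ := by rw [← h]; group
          rw [mul_assoc, h1, ← mul_assoc, h2, mul_assoc]⟩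
        invFun := fun z => ⟨k₁ * z.1, K.mul_mem hk₁ z.2.1, by
          have h1 := Subgroup.mem_centralizer_singleton_iff.mp z.2.2
          have e : k₁ * z.1 * c * (k₁ * z.1)⁻¹ = k₁ * (z.1 * c) * z.1⁻¹ * k₁⁻¹ := by group
          rw [e, h1, ← h]
          group⟩
        left_inv := by
          intro k
          apply Subtype.ext
          simp
        right_inv := by
          intro z
          apply Subtype.ext
          simp }
    rw [Nat.card_congr e]
    intro hd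
    exact hcop (hd.trans (Subgroup.card_dvd_of_le inf_le_left))
  obtain ⟨k, hk⟩ := hR.nonempty_fixed_point_of_prime_not_dvd_card _ hcard
  refine ⟨k.1, ⟨?_, k.2.1⟩, k.2.2⟩
  show k.1 ∈ cz R
  rw [Subgroup.mem_centralizer_iff]
  intro u hu
  have h1 : (u : G) * k.1 * u⁻¹ = k.1 := congrArg Subtype.val (hk ⟨u, hu⟩)
  calc u * k.1 = (u * k.1 * u⁻¹) * u := by group
    _ = k.1 * u := by rw [h1]

end grp

section glaub

variable {G : Type*} [Group G] [Fintype G] {M : Ideal AlgInt} {p : ℕ}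

theorem glauberman_key (hM : IsPModular p M) {K Q R : Subgroup G} {ε : G → ℂ}
    (d : FData p M K Q ε) (hcop : ¬ p ∣ Nat.card K) (hR : IsPGroup p R) (c : ↥(cz R ⊓ K)) :
    ∃ c' : ℂ, ∀ η : IrrCharacter ↥(cz R ⊓ K), MemLocalIdeal M
      (om (η : ↥(cz R ⊓ K) → ℂ) (fun x : ↥(cz R ⊓ K) => ε x) *
        centralChar (η : ↥(cz R ⊓ K) → ℂ) c -
        c' * om (η : ↥(cz R ⊓ K) → ℂ) (fun x : ↥(cz R ⊓ K) => ε x)) := by
  have := IsPModular.isPrime hM
  have : Fact p.Prime := ⟨hM.1⟩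
  have hK := d.normalN
  obtain ⟨γ, hγ⟩ : ∃ γ : ↥(cz R ⊓ K) → ℂ, γ = fun x : ↥(cz R ⊓ K) => ε x := ⟨_, rfl⟩
  have hγcl : IsClassFunction ↥(cz R ⊓ K) γ := by
    rw [hγ]
    exact isClassFunction_res_inf d.cls _
  obtain ⟨a, ha⟩ : ∃ a : G → ℂ, a = fun g => if ∃ k ∈ K, k * (c : G) * k⁻¹ = g then 1 else 0 :=
    ⟨_, rfl⟩
  have hcR : (c : G) ∈ cz R := c.2.1
  have ha_supp : ∀ x, x ∉ K → a x = 0 := by
    intro x hx
    rw [ha]
    simp only
    rw [if_neg]
    rintro ⟨k, hk, rfl⟩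
    exact hx (hK.conj_mem _ c.2.2 _)
  have ha_inv : ∀ (n : G), (∀ k ∈ K, n * k * n⁻¹ ∈ K) → (∀ k ∈ K, n⁻¹ * k * n ∈ K) →
      (∃ k ∈ K, k * (c : G) * k⁻¹ = n * c * n⁻¹) → (∃ k ∈ K, k * (c : G) * k⁻¹ = n⁻¹ * c * n) →
      ∀ x, a (n * x * n⁻¹) = a x := by
    intro n hn1 hn2 hn3 hn4 x
    rw [ha]
    simp only
    congr 1
    apply propext
    constructor
    · rintro ⟨k, hk, hkx⟩
      obtain ⟨k', hk', hk'c⟩ := hn4
      refine ⟨n⁻¹ * k * n * k', K.mul_mem (hn2 k hk) hk', ?_⟩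
      have e : n⁻¹ * k * n * k' * (c : G) * (n⁻¹ * k * n * k')⁻¹ =
          n⁻¹ * k * n * (k' * (c : G) * k'⁻¹) * n⁻¹ * k⁻¹ * n := by group
      rw [e, hk'c]
      have e2 : n⁻¹ * k * n * (n⁻¹ * (c : G) * n) * n⁻¹ * k⁻¹ * n =
          n⁻¹ * (k * (c : G) * k⁻¹) * n := by group
      rw [e2, hkx]
      group
    · rintro ⟨k, hk, rfl⟩
      obtain ⟨k', hk', hk'c⟩ := hn3
      refine ⟨n * k * n⁻¹ * k', K.mul_mem (hn1 k hk) hk', ?_⟩
      have e : n * k * n⁻¹ * k' * (c : G) * (n * k * n⁻¹ * k')⁻¹ =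
          n * k * n⁻¹ * (k' * (c : G) * k'⁻¹) * n * k⁻¹ * n⁻¹ := by group
      rw [e, hk'c]
      group
  have hconj1 : ∀ n : G, ∀ k ∈ K, n * k * n⁻¹ ∈ K := fun n k hk => hK.conj_mem k hk n
  have hconj2 : ∀ n : G, ∀ k ∈ K, n⁻¹ * k * n ∈ K := by
    intro n k hk
    have := hK.conj_mem k hk n⁻¹
    rwa [inv_inv] at this
  have ha_K : ∀ n ∈ K, ∀ x, a (n * x * n⁻¹) = a x := by
    intro n hn
    exact ha_inv n (hconj1 n) (hconj2 n) ⟨n, hn, rfl⟩ ⟨n⁻¹, K.inv_mem hn, by rw [inv_inv]⟩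
  have ha_R : ∀ u ∈ R, ∀ x, a (u * x * u⁻¹) = a x := by
    intro u hu
    have h1 := Subgroup.mem_centralizer_iff.mp hcR u hu
    refine ha_inv u (hconj1 u) (hconj2 u) ⟨1, K.one_mem, ?_⟩ ⟨1, K.one_mem, ?_⟩
    · rw [h1]; group
    · have e : u⁻¹ * (c : G) * u = u⁻¹ * ((c : G) * u) := by group
      rw [e, ← h1]; group
  have ha_loc : ∀ g, MemLocalRing M (a g) := by
    intro g
    rw [ha]
    simp only
    split_ifs
    · exact memLocalRing_one
    · exact memLocalRing_zero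
  have ha_cl : ∀ y : ↥(cz R ⊓ K), a (y : G) = classInd c y := by
    intro y
    rw [ha, classInd_apply]
    simp only
    congr 1
    apply propext
    constructor
    · rintro ⟨k, hk, hky⟩
      obtain ⟨k₀, hk₀, hk₀y⟩ := exists_conj_in_centralizer hcop hR hcR y.2.1 hk hky
      exact isConj_iff.mpr ⟨⟨k₀, hk₀⟩, Subtype.ext hk₀y⟩
    · intro hc
      obtain ⟨t, ht⟩ := isConj_iff.mp hc
      exact ⟨t, t.2.2, congrArg Subtype.val ht⟩
  obtain ⟨c', hc'⟩ := d.prim a ha_supp ha_K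
  refine ⟨c', fun η => ?_⟩
  have hδ : ∀ g : ↥(cz R ⊓ K), MemLocalIdeal M ((conv γ (classInd c) - c' • γ) g) := by
    intro g
    obtain ⟨s, hs, hsum⟩ := conv_eq_sum_centralizer_add hM hR (F₁ := ε) (F₂ := a)
      (fun u _ g => d.cls g u) ha_R d.loc ha_loc (z := (g : G)) g.2.1
    rw [hc'] at hsum
    have h1 : ∑ x : G, (if x ∈ Subgroup.centralizer (R : Set G) then ε x * a (x⁻¹ * g) else 0) =
        conv γ (classInd c) g := by
      have h2 : ∀ x : G, (if x ∈ Subgroup.centralizer (R : Set G) then ε x * a (x⁻¹ * g) else 0) =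
          if x ∈ cz R ⊓ K then ε x * a (x⁻¹ * g) else 0 := by
        intro x
        by_cases hx1 : x ∈ Subgroup.centralizer (R : Set G)
        · by_cases hx2 : x ∈ K
          · rw [if_pos hx1, if_pos (show x ∈ cz R ⊓ K from ⟨hx1, hx2⟩)]
          · rw [if_pos hx1, if_neg (fun h : x ∈ cz R ⊓ K => hx2 h.2), d.supp x hx2, zero_mul]
        · rw [if_neg hx1, if_neg (fun h : x ∈ cz R ⊓ K => hx1 h.1)]
      rw [Finset.sum_congr rfl (fun x _ => h2 x),
        sum_ite_mem_eq_sum_subtype (cz R ⊓ K) (fun x => ε x * a (x⁻¹ * g)), conv_apply]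
      apply Finset.sum_congr rfl
      intro x _
      rw [hγ, ← ha_cl]
      rfl
    rw [h1] at hsum
    rw [Pi.sub_apply, Pi.smul_apply, smul_eq_mul]
    have h3 : γ g = ε g := by rw [hγ]
    rw [Pi.smul_apply, smul_eq_mul] at hsum
    have h4 : conv γ (classInd c) g - c' * γ g = - ((p : ℂ) * s) := by
      rw [h3, hsum]
      ring
    rw [h4]
    exact MemLocalIdeal.neg (MemLocalIdeal.mul_right (memLocalIdeal_p hM) hs)
  have h5 := om_memLocalIdeal η.2
    (show IsClassFunction ↥(cz R ⊓ K) (conv γ (classInd c) - c' • γ) from by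
      intro x y
      rw [Pi.sub_apply, Pi.sub_apply, Pi.smul_apply, Pi.smul_apply,
        isClassFunction_conv hγcl (isClassFunction_classInd c) x y, hγcl x y]) hδ
  rw [om_sub, om_conv η.2 hγcl (isClassFunction_classInd c),
    om_classInd (irr_isClassFunction η.2), om_smul, hγ] at h5
  exact h5

theorem glauberman_unique (hM : IsPModular p M) {K Q R : Subgroup G} {ε : G → ℂ}
    (d : FData p M K Q ε) (hcop : ¬ p ∣ Nat.card K) (hR : IsPGroup p R)
    {η₁ η₂ : IrrCharacter ↥(cz R ⊓ K)}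
    (h₁ : MemLocalIdeal M (om (η₁ : ↥(cz R ⊓ K) → ℂ) (fun x : ↥(cz R ⊓ K) => ε x) - 1))
    (h₂ : MemLocalIdeal M (om (η₂ : ↥(cz R ⊓ K) → ℂ) (fun x : ↥(cz R ⊓ K) => ε x) - 1)) :
    η₁ = η₂ := by
  have := IsPModular.isPrime hM
  have hcop' : ¬ p ∣ Nat.card ↥(cz R ⊓ K) := fun h =>
    hcop (h.trans (Subgroup.card_dvd_of_le inf_le_right))
  have aux : ∀ {u w c' : ℂ}, MemLocalIdeal M (u - 1) → MemLocalIdeal M (u * w - c' * u) →
      MemLocalIdeal M (w - c') := by
    intro u w c' hu h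
    have hu1 : MemLocalRing M u := by
      have := MemLocalRing.add (MemLocalIdeal.memLocalRing hu) (memLocalRing_one (M := M))
      rwa [sub_add_cancel] at this
    have hu2 : ¬ MemLocalIdeal M u := by
      intro hc
      apply not_memLocalIdeal_one (M := M)
      have := MemLocalIdeal.sub hc hu
      rwa [sub_sub_cancel] at this
    have hu0 : u ≠ 0 := by
      rintro rfl
      exact hu2 memLocalIdeal_zero
    have h3 := MemLocalIdeal.mul_right h (MemLocalRing.inv hu1 hu2)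
    have e : (u * w - c' * u) * u⁻¹ = w - c' := by field_simp
    rwa [e] at h3
  have hs : SameBlock M (η₁ : ↥(cz R ⊓ K) → ℂ) (η₂ : ↥(cz R ⊓ K) → ℂ) := by
    intro c
    obtain ⟨c', hc'⟩ := glauberman_key hM d hcop hR c
    have e1 := aux h₁ (hc' η₁)
    have e2 := aux h₂ (hc' η₂)
    have := MemLocalIdeal.sub e1 e2
    rwa [sub_sub_sub_cancel_right] at this
  have hb := isPBlock_singleton_of_not_dvd hM hcop' η₁
  have h3 : η₂ ∈ blockOf M (η₁ : ↥(cz R ⊓ K) → ℂ) := hs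
  rw [← IsPBlock.eq_blockOf hb (Set.mem_singleton η₁)] at h3
  exact (Set.mem_singleton_iff.mp h3).symm

end glaub

end Cfsg.Agent.Lib.Helper24
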