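import Cfsg.Agent.Lib.Helper24.PConstr2
import Cfsg.Agent.Lib.Helper24.PConstr3
import Cfsg.Agent.Lib.Helper24.BrauerCorr
import Cfsg.Agent.Lib.Helper24.IndCent

/-!
# Blocks over an invariant character of `O_{p'}(G)` in a `p`-constrained group are of principal type
-/

set_option autoImplicit false
set_option linter.unusedSectionVars false

namespace Cfsg.Agent.Lib.Helper24

open Cfsg Cfsg.Agent.Lib.Helper2 Cfsg.Agent.Lib.Helper6
open scoped ComplexConjugate Classical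

attribute [local instance] irrFintype

section

universe u

variable {G : Type u} [Group G] [Fintype G] {M : Ideal AlgInt} {p : ℕ}

/-- two characters of `C_G(R)` on which the truncated idempotent is `1` lie in the same block -/
theorem sameBlock_cz_of_om (hM : IsPModular p M) {K Q R : Subgroup G} {ε : G → ℂ}
    (d : FData p M K Q ε) (hcop : ¬ p ∣ Nat.card K) (hR : IsPGroup p R)
    (hRQ : R ≤ Subgroup.normalizer (Q : Set G)) {ξ₁ ξ₂ : IrrCharacter (cz R)}
    (h₁ : MemLocalIdeal M (om (ξ₁ : cz R → ℂ) (fun h : cz R => ε h) - 1))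
    (h₂ : MemLocalIdeal M (om (ξ₂ : cz R → ℂ) (fun h : cz R => ε h) - 1)) :
    SameBlock M (ξ₁ : cz R → ℂ) (ξ₂ : cz R → ℂ) := by
  have := IsPModular.isPrime hM
  have : Fact p.Prime := ⟨hM.1⟩
  have hK := d.normalN
  have hKQ : Q ⊓ K = ⊥ := inf_eq_bot_of_pGroup hcop d.pQ
  have hcopC : ¬ p ∣ Nat.card ↥(cz R ⊓ K) := fun h =>
    hcop (h.trans (Subgroup.card_dvd_of_le inf_le_right))
  -- the constituents
  obtain ⟨η₁, hη₁⟩ := exists_constituent_incl (inf_le_left : cz R ⊓ K ≤ cz R) ξ₁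
  obtain ⟨η₂, hη₂⟩ := exists_constituent_incl (inf_le_left : cz R ⊓ K ≤ cz R) ξ₂
  have e₁ := brauerOmega_eq_om_inf d.cls d.supp R ξ₁ η₁ hη₁
  have e₂ := brauerOmega_eq_om_inf d.cls d.supp R ξ₂ η₂ hη₂
  rw [brauerOmega_eq_om] at e₁ e₂
  have u₁ : MemLocalIdeal M (om (η₁ : ↥(cz R ⊓ K) → ℂ) (fun x : ↥(cz R ⊓ K) => ε x) - 1) := by
    rw [← e₁]; exact h₁
  have u₂ : MemLocalIdeal M (om (η₂ : ↥(cz R ⊓ K) → ℂ) (fun x : ↥(cz R ⊓ K) => ε x) - 1) := by
    rw [← e₂]; exact h₂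
  obtain rfl := glauberman_unique hM d hcop hR u₁ u₂
  -- invariance
  have hbη := isPBlock_singleton_of_not_dvd hM hcopC η₁
  have hinv : ∀ x ∈ cz R, StabilizesBlock (cz R ⊓ K) {η₁} x := by
    intro x hx
    have hD : IsConjSub x (cz R ⊓ K) (cz R ⊓ K) :=
      isConjSub_of_mem_normalizer (cz_le_normalizer_inf R hx)
    apply stabilizesBlock_of_mem hbη hD (Set.mem_singleton η₁)
    rw [Set.mem_singleton_iff]
    apply glauberman_unique hM d hcop hR _ u₁
    have e3 : (fun y : ↥(cz R ⊓ K) => ε y) = (fun y : ↥(cz R ⊓ K) => ε y) ∘ conjIso hD := by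
      funext y
      rw [Function.comp_apply, conjIso_coe]
      have := d.cls (y : G) x⁻¹
      rw [inv_inv] at this
      exact this.symm
    rw [irrMap_coe, e3, om_comp_equiv']
    exact u₁
  -- pass to the group `C_G(R)`
  have hcopy : IsCopy ((cz R ⊓ K).subgroupOf (cz R)) (cz R ⊓ K) := isCopy_subgroupOf inf_le_left
  have hcopyQ : IsCopy ((cz R ⊓ Q).subgroupOf (cz R)) (cz R ⊓ Q) := isCopy_subgroupOf inf_le_left
  have hNX : ((cz R ⊓ K).subgroupOf (cz R)).Normal :=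
    normal_subgroupOf_of_le_normalizer (cz_le_normalizer_inf R)
  obtain ⟨θX, hθX⟩ : ∃ θX : IrrCharacter ↥((cz R ⊓ K).subgroupOf (cz R)),
      θX = irrMap (copyIso hcopy).symm η₁ := ⟨_, rfl⟩
  have hup : upSet hcopy {θX} = {η₁} := by
    rw [upSet, blockMap, Set.image_singleton, hθX]
    congr 1
  have hstX : ∀ x : cz R, StabilizesBlock ((cz R ⊓ K).subgroupOf (cz R)) {θX} x := by
    intro x
    rw [← stabilizesBlock_upSet_iff hcopy, hup]
    exact hinv x x.2
  have hover : ∀ ξ : IrrCharacter (cz R),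
      classInner ((ξ : cz R → ℂ) ∘ Subgroup.inclusion inf_le_left) (η₁ : ↥(cz R ⊓ K) → ℂ) ≠ 0 →
      om (ξ : cz R → ℂ) (subgroupBlockCoeff ((cz R ⊓ K).subgroupOf (cz R)) {θX}) = 1 := by
    intro ξ hξ
    have h3 : classInner ((ξ : cz R → ℂ) ∘ ((cz R ⊓ K).subgroupOf (cz R)).subtype)
        (θX : ↥((cz R ⊓ K).subgroupOf (cz R)) → ℂ) ≠ 0 := by
      rw [hθX, irrMap_coe]
      have := classInner_res_copy (inf_le_left : cz R ⊓ K ≤ cz R) (ξ : cz R → ℂ)
        (η₁ : ↥(cz R ⊓ K) → ℂ)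
      rw [← this] at hξ
      exact hξ
    rw [om_sbc_of_over hstX h3, Set.indicator_of_mem (Set.mem_singleton θX)]
    rfl
  have hLX : ((cz R ⊓ K).subgroupOf (cz R) ⊔ (cz R ⊓ Q).subgroupOf (cz R)).Normal := by
    rw [← Subgroup.subgroupOf_sup inf_le_left inf_le_left, cz_inf_sup_eq hKQ hRQ,
      Subgroup.inf_subgroupOf_left]
    have := d.normalL
    infer_instance
  apply sameBlock_of_constrained hM (N := (cz R ⊓ K).subgroupOf (cz R))
    (Q := (cz R ⊓ Q).subgroupOf (cz R)) _ _ hLX _ θX hstX (hover ξ₁ hη₁) (hover ξ₂ hη₂)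
  · rw [hcopy.card_eq]
    exact hcopC
  · rw [hcopyQ.isPGroup_iff]
    exact d.pQ.to_le inf_le_right
  · intro x hx hxp
    rw [Subgroup.mem_subgroupOf]
    refine ⟨x.2, ?_⟩
    apply mem_of_centralizes_fixed hcop d.pQ d.normalL d.cent hR hRQ x.2
      ((hcopyQ.mem_centralizer_iff x).mp hx)
    rwa [Subgroup.orderOf_coe]

/-- replace `Q` by an `R`-invariant conjugate -/
theorem exists_invariant_sylow [Fact p.Prime] {K Q R : Subgroup G} [hK : K.Normal]
    (hcop : ¬ p ∣ Nat.card K) (hQ : IsPGroup p Q) (hL : (K ⊔ Q).Normal)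
    (hcent : cz Q ≤ K ⊔ Q) (hR : IsPGroup p R) :
    ∃ Q' : Subgroup G, IsPGroup p Q' ∧ (K ⊔ Q').Normal ∧ cz Q' ≤ K ⊔ Q' ∧
      R ≤ Subgroup.normalizer (Q' : Set G) := by
  obtain ⟨S, hRS⟩ := hR.exists_le_sylow
  have hSsyl : IsSylIn p ⊤ (S : Subgroup G) :=
    isSylIn_iff.mpr ⟨le_top, by rw [Subgroup.card_top]; exact S.card_eq_multiplicity⟩
  have h1 := (isSylIn_inf_normal (N := K ⊔ Q) hSsyl).1
  rw [top_inf_eq] at h1
  obtain ⟨c, hc, hcQ⟩ := isSylIn_exists_conj (isSylIn_sup_of_coprime hcop hQ) h1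
  have hQ' : IsPGroup p ((S : Subgroup G) ⊓ (K ⊔ Q) : Subgroup G) := h1.isPGroup
  have hsup : K ⊔ ((S : Subgroup G) ⊓ (K ⊔ Q)) = K ⊔ Q := by
    apply Subgroup.eq_of_le_of_card_ge (sup_le le_sup_left inf_le_right)
    rw [card_sup_of_coprime hcop hQ, card_sup_of_coprime hcop hQ', hcQ, card_cj]
  refine ⟨(S : Subgroup G) ⊓ (K ⊔ Q), hQ', by rw [hsup]; exact hL, ?_, ?_⟩
  · rw [hsup]
    intro x hx
    have h2 : c⁻¹ * x * c ∈ cz Q := by
      rw [Subgroup.mem_centralizer_iff]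
      intro q hq
      have h3 : c * q * c⁻¹ ∈ (S : Subgroup G) ⊓ (K ⊔ Q) := by
        rw [hcQ, mem_cj]
        have e : c⁻¹ * (c * q * c⁻¹) * c = q := by group
        rwa [e]
      have h4 := Subgroup.mem_centralizer_iff.mp hx _ h3
      calc q * (c⁻¹ * x * c) = c⁻¹ * ((c * q * c⁻¹) * x) * c := by group
        _ = c⁻¹ * (x * (c * q * c⁻¹)) * c := by rw [h4]
        _ = c⁻¹ * x * c * q := by group
    have h5 := hL.conj_mem _ (hcent h2) c
    have e : c * (c⁻¹ * x * c) * c⁻¹ = x := by group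
    rwa [e] at h5
  · intro r hr
    have hrS := hRS hr
    rw [Subgroup.mem_normalizer_iff]
    intro h
    constructor
    · rintro ⟨h1, h2⟩
      exact ⟨(S : Subgroup G).mul_mem ((S : Subgroup G).mul_mem hrS h1)
        ((S : Subgroup G).inv_mem hrS), hL.conj_mem _ h2 _⟩
    · rintro ⟨h1, h2⟩
      have e : r⁻¹ * (r * h * r⁻¹) * r⁻¹⁻¹ = h := by group
      refine ⟨?_, ?_⟩
      · have := (S : Subgroup G).mul_mem ((S : Subgroup G).mul_mem
          ((S : Subgroup G).inv_mem hrS) h1) ((S : Subgroup G).inv_mem ((S : Subgroup G).inv_mem hrS))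
        rwa [e] at this
      · have := hL.conj_mem _ h2 r⁻¹
        rwa [e] at this

theorem principal_type_of_constrained (hM : IsPModular p M) {K Q : Subgroup G} [hK : K.Normal]
    (hcop : ¬ p ∣ Nat.card K) (hQ : IsPGroup p Q) (hL : (K ⊔ Q).Normal)
    (hcent : cz Q ≤ K ⊔ Q) (θ : IrrCharacter K) (hst : ∀ x : G, StabilizesBlock K {θ} x) :
    ∃ B : Set (IrrCharacter G), IsPBlock M B ∧
      (∀ χ : IrrCharacter G, χ ∈ B ↔ classInner ((χ : G → ℂ) ∘ K.subtype) (θ : K → ℂ) ≠ 0) ∧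
      (∀ P : Sylow p G, IsDefectGroup p M B (P : Subgroup G)) ∧
      ∀ R : Subgroup G, IsPGroup p R →
        ∃! f : Set (IrrCharacter (cz R)), IsInducedBlock M (cz R) f B := by
  have := IsPModular.isPrime hM
  have : Fact p.Prime := ⟨hM.1⟩
  have d := fData_of_invariant hM hcop hQ hL hcent θ hst
  have hsame : ∀ χ χ' : IrrCharacter G, om (χ : G → ℂ) (subgroupBlockCoeff K {θ}) = 1 →
      om (χ' : G → ℂ) (subgroupBlockCoeff K {θ}) = 1 → SameBlock M (χ : G → ℂ) (χ' : G → ℂ) :=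
    fun χ χ' h h' => sameBlock_of_constrained hM hcop hQ hL
      (fun x hx hp => mem_of_pRegular_of_mem_sup hQ (hcent hx) hp) θ hst h h'
  obtain ⟨B, hBdef⟩ : ∃ B : Set (IrrCharacter G),
      B = {χ : IrrCharacter G | om (χ : G → ℂ) (subgroupBlockCoeff K {θ}) = 1} := ⟨_, rfl⟩
  obtain ⟨χ₀, h0, -⟩ := d.exists_reg hM
  have hB : IsPBlock M B := by
    refine ⟨χ₀, ?_⟩
    rw [hBdef]
    ext χ
    constructor
    · intro hχ
      exact hsame χ₀ χ h0 hχ
    · intro hχ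
      exact d.om_eq_one_of_sameBlock hχ h0
  have hcoef : coef (B.indicator 1) = subgroupBlockCoeff K {θ} := by
    conv_rhs => rw [eq_coef_om d.cls]
    congr 1
    ext χ
    rw [hBdef]
    by_cases hχ : om (χ : G → ℂ) (subgroupBlockCoeff K {θ}) = 1
    · rw [Set.indicator_of_mem (show χ ∈ {χ : IrrCharacter G |
        om (χ : G → ℂ) (subgroupBlockCoeff K {θ}) = 1} from hχ), hχ]
      rfl
    · rw [Set.indicator_of_notMem (show χ ∉ {χ : IrrCharacter G |
        om (χ : G → ℂ) (subgroupBlockCoeff K {θ}) = 1} from hχ)]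
      rcases d.om_zero_or_one χ with h | h
      · exact h.symm
      · exact absurd h hχ
  have hdef : ∀ P : Sylow p G, IsDefectGroup p M B (P : Subgroup G) := by
    intro P
    refine isDefectGroup_iff.mpr ⟨1, isDefectClass_iff.mpr ⟨?_, ?_, ?_⟩, ?_⟩
    · rw [hcoef]
      exact d.loc 1
    · rw [hcoef]
      exact d.unit1
    · intro χ _
      rw [centralChar_one (irr_one_ne_zero χ.2)]
      exact not_memLocalIdeal_one
    · have htop : cen (1 : G) = ⊤ := by
        rw [cen, Subgroup.centralizer_eq_top_iff_subset]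
        intro x hx
        rw [Set.mem_singleton_iff.mp hx]
        exact (Subgroup.center G).one_mem
      rw [isSylIn_iff, htop, Subgroup.card_top]
      exact ⟨le_top, P.card_eq_multiplicity⟩
  refine ⟨B, hB, ?_, hdef, ?_⟩
  · intro χ
    rw [hBdef, Set.mem_ofPred_eq]
    constructor
    · intro h
      exact constituent_of_om_sbc hst h
    · intro h
      rw [om_sbc_of_over hst h, Set.indicator_of_mem (Set.mem_singleton θ)]
      rfl
  · intro R hR
    have huniq : ∀ f₁ f₂ : Set (IrrCharacter (cz R)), IsInducedBlock M (cz R) f₁ B →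
        IsInducedBlock M (cz R) f₂ B → f₁ = f₂ := by
      intro f₁ f₂ hf₁ hf₂
      obtain ⟨Q', hQ', hL', hcent', hRQ'⟩ := exists_invariant_sylow hcop hQ hL hcent hR
      have d' := fData_of_invariant hM hcop hQ' hL' hcent' θ hst
      obtain ⟨ξ₁, hξ₁⟩ := IsPBlock.nonempty hf₁.1
      obtain ⟨ξ₂, hξ₂⟩ := IsPBlock.nonempty hf₂.1
      have hχ₀ : χ₀ ∈ B := by rw [hBdef]; exact h0
      have e₁ := om_res_sub_memLocalIdeal (cz R) (irr_isClassFunction χ₀.2)
        (fun g => hf₁.2.2 ξ₁ hξ₁ χ₀ hχ₀ g) d.cls d.loc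
      have e₂ := om_res_sub_memLocalIdeal (cz R) (irr_isClassFunction χ₀.2)
        (fun g => hf₂.2.2 ξ₂ hξ₂ χ₀ hχ₀ g) d.cls d.loc
      rw [h0] at e₁ e₂
      have hs := sameBlock_cz_of_om hM d' hcop hR hRQ' e₁ e₂
      apply IsPBlock.eq_of_mem_of_mem hf₁.1 hf₂.1 (χ := ξ₂) _ hξ₂
      rw [IsPBlock.eq_blockOf hf₁.1 hξ₁]
      exact hs
    obtain ⟨ζ, hζ⟩ := exists_brauerOmega_eq_one hM hR (dom_blockCoeff R hB)
      (by rw [blockCoeff_fun]; exact coef_indicator_idem B) (cz R).one_mem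
      (by rw [blockCoeff_fun, hcoef]; exact d.unit1)
    have hpair : IsBrauerPairOf p M B R (blockOf M (ζ : cz R → ℂ)) :=
      ⟨⟨hR, ⟨ζ, rfl⟩⟩, hB, occ_blockOf (dom_blockCoeff R hB) hζ⟩
    have hind : IsInducedBlock M (cz R) (blockOf M (ζ : cz R → ℂ)) B := by
      refine ⟨⟨ζ, rfl⟩, hB, fun ξ hξ χ hχ g => ?_⟩
      have h1 := brauerOmega_sub_om hM hpair hξ hχ (isClassFunction_classInd g)
        (Cfsg.Agent.Lib.Helper6.memLocalRing_classInd g)
      rw [brauerOmega_eq_om, om_classInd (irr_isClassFunction χ.2)] at h1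
      rw [inducedCentralChar_eq_om]
      exact h1
    exact ⟨_, hind, fun f' hf' => huniq _ _ hf' hind⟩

end

end Cfsg.Agent.Lib.Helper24
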