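import Mathlib

/-!
# The determinant trick used for the principal ideal theorem
-/

set_option autoImplicit false
set_option linter.unusedSectionVars false

namespace Cfsg.Agent.Lib.Helper24.PIT

open scoped Classical

section det

variable {R : Type*} [CommRing R] {W : Type*} [AddCommGroup W] [Module R W]
  {ι : Type*} [Fintype ι]

theorem det_smul_eq_zero (b : ι → W) (P : Matrix ι ι R)
    (h : ∀ i, ∑ k, P i k • b k = 0) (k : ι) : P.det • b k = 0 := by
  have h1 : ∀ j, (P.adjugate * P) k j = if k = j then P.det else 0 := by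
    intro j
    rw [Matrix.adjugate_mul, Matrix.smul_apply, Matrix.one_apply]
    split_ifs <;> simp
  have h2 : ∑ j, (P.adjugate * P) k j • b j = P.det • b k := by
    simp only [h1]
    rw [Finset.sum_eq_single k]
    · rw [if_pos rfl]
    · intro j _ hj
      rw [if_neg (Ne.symm hj), zero_smul]
    · intro hk
      exact absurd (Finset.mem_univ _) hk
  rw [← h2]
  simp only [Matrix.mul_apply, Finset.sum_smul, mul_smul]
  rw [Finset.sum_comm]
  apply Finset.sum_eq_zero
  intro i _
  rw [← Finset.smul_sum, h i, smul_zero]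

theorem exists_annihilator (ε : R →+* ℤ) (b : ι → W) (c : ι → ℤ)
    (h : ∀ i, (c i : R) • b i ∈ (RingHom.ker ε) • Submodule.span R (Set.range b)) :
    ∃ δ : R, ε δ = ∏ i, c i ∧ ∀ k, δ • b k = 0 := by
  have h' : ∀ i, ∃ a : ι →₀ R, (∀ k, a k ∈ RingHom.ker ε) ∧
      (a.sum fun k r => r • b k) = (c i : R) • b i := by
    intro i
    obtain ⟨a, ha, hs⟩ := (Submodule.mem_ideal_smul_span_iff_exists_sum _ b _).mp (h i)
    exact ⟨a, ha, hs⟩
  choose γ hγ hs using h'
  let P : Matrix ι ι R := Matrix.diagonal (fun i => (c i : R)) - Matrix.of (fun i k => γ i k)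
  refine ⟨P.det, ?_, det_smul_eq_zero b P ?_⟩
  · rw [RingHom.map_det]
    have : ε.mapMatrix P = Matrix.diagonal c := by
      ext i k
      simp only [P, RingHom.mapMatrix_apply, Matrix.map_apply, Matrix.sub_apply, Matrix.of_apply,
        map_sub, (RingHom.mem_ker).mp (hγ i k), sub_zero, Matrix.diagonal_apply]
      split_ifs <;> simp
    rw [this, Matrix.det_diagonal]
  · intro i
    have h1 : ∑ k, γ i k • b k = (c i : R) • b i := by
      rw [← hs i, Finsupp.sum_fintype]
      intro k
      rw [zero_smul]
    simp only [P, Matrix.sub_apply, Matrix.of_apply, sub_smul, Finset.sum_sub_distrib, h1]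
    rw [Finset.sum_eq_single i]
    · rw [Matrix.diagonal_apply_eq, sub_self]
    · intro k _ hk
      rw [Matrix.diagonal_apply_ne _ (Ne.symm hk), zero_smul]
    · intro hk
      exact absurd (Finset.mem_univ _) hk

end det

end Cfsg.Agent.Lib.Helper24.PIT
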