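import Mathlib
import Cfsg.Agent.Lib.Helper24.PIT1

/-!
# Derivations of a finite group into modules over the group ring of its abelianization
-/

set_option autoImplicit false
set_option linter.unusedSectionVars false

namespace Cfsg.Agent.Lib.Helper24.PIT

open scoped Classical

section grp

variable {G : Type*} [Group G] [Finite G]

/-- the augmentation -/
noncomputable def aug (A : Type*) [CommGroup A] : MonoidAlgebra ℤ A →+* ℤ :=
  (MonoidAlgebra.lift ℤ ℤ A (1 : A →* ℤ)).toRingHom

theorem aug_single (A : Type*) [CommGroup A] (a : A) (n : ℤ) :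
    aug A (MonoidAlgebra.single a n) = n := by
  show (MonoidAlgebra.lift ℤ ℤ A (1 : A →* ℤ)) (MonoidAlgebra.single a n) = n
  rw [MonoidAlgebra.lift_single]
  simp

theorem single_sub_one_mem_ker (A : Type*) [CommGroup A] (a : A) :
    (MonoidAlgebra.single a (1 : ℤ) - 1 : MonoidAlgebra ℤ A) ∈ RingHom.ker (aug A) := by
  rw [RingHom.mem_ker, map_sub, aug_single, map_one, sub_self]

variable {W : Type*} [AddCommGroup W] [Module (MonoidAlgebra ℤ (Abelianization G)) W]

theorem exists_delta (b : G → W)
    (hb : ∀ g h, b (g * h) = b g + MonoidAlgebra.single (Abelianization.of g) (1 : ℤ) • b h) :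
    ∃ δ : MonoidAlgebra ℤ (Abelianization G),
      aug (Abelianization G) δ = Nat.card (Abelianization G) ∧ ∀ g, δ • b g = 0 := by
  have hfin : Finite (Abelianization G) := inferInstanceAs (Finite (G ⧸ commutator G))
  obtain ⟨ι₀, _, n, hn, ⟨e⟩⟩ :=
    CommGroup.equiv_prod_multiplicative_zmod_of_finite (Abelianization G)
  have hne : ∀ i, NeZero (n i) := fun i => ⟨by have := hn i; omega⟩
  have hsurj : Function.Surjective (Abelianization.of : G →* Abelianization G) :=
    QuotientGroup.mk_surjective
  have hker : ∀ x : G, Abelianization.of x = 1 ↔ x ∈ commutator G :=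
    fun x => QuotientGroup.eq_one_iff x
  let a : ι₀ → Abelianization G := fun i => e.symm (Pi.mulSingle i (Multiplicative.ofAdd 1))
  choose g hg using fun i => hsurj (a i)
  have hb1 : b 1 = 0 := by
    have h := hb 1 1
    rw [mul_one, map_one, ← MonoidAlgebra.one_def, one_smul] at h
    exact left_eq_add.mp h
  have hone : ∀ w : W, MonoidAlgebra.single (1 : Abelianization G) (1 : ℤ) • w = w := by
    intro w
    rw [← MonoidAlgebra.one_def, one_smul]
  cases nonempty_fintype (commutator G)
  let fam : ι₀ ⊕ commutator G → W := Sum.elim (fun i => b (g i)) (fun h => b h)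
  let c : ι₀ ⊕ commutator G → ℤ := Sum.elim (fun i => (n i : ℤ)) (fun _ => 1)
  obtain ⟨B, hB⟩ : ∃ B : Submodule (MonoidAlgebra ℤ (Abelianization G)) W,
      B = Submodule.span (MonoidAlgebra ℤ (Abelianization G)) (Set.range fam) := ⟨_, rfl⟩
  have hfamB : ∀ j, fam j ∈ B := fun j => hB ▸ Submodule.subset_span ⟨j, rfl⟩
  -- all values of `b` lie in `B`
  let X : Subgroup G :=
    { carrier := {x | b x ∈ B}
      one_mem' := by
        show b 1 ∈ B
        rw [hb1]
        exact B.zero_mem
      mul_mem' := by
        intro x y hx hy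
        show b (x * y) ∈ B
        rw [hb]
        exact B.add_mem hx (B.smul_mem _ hy)
      inv_mem' := by
        intro x hx
        show b x⁻¹ ∈ B
        have h := hb x⁻¹ x
        rw [inv_mul_cancel, hb1] at h
        have h2 : b x⁻¹ = - (MonoidAlgebra.single (Abelianization.of x⁻¹) (1 : ℤ) • b x) :=
          eq_neg_of_add_eq_zero_left h.symm
        rw [h2]
        exact B.neg_mem (B.smul_mem _ hx) }
  have hXg : ∀ i, g i ∈ X := fun i => hfamB (Sum.inl i)
  have hXc : ∀ h ∈ commutator G, h ∈ X := fun h hh => hfamB (Sum.inr ⟨h, hh⟩)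
  have hpow : ∀ (i : ι₀) (k : ℕ), (Pi.mulSingle i (Multiplicative.ofAdd (1 : ZMod (n i))) :
      (i : ι₀) → Multiplicative (ZMod (n i))) ^ k =
      Pi.mulSingle i (Multiplicative.ofAdd (k : ZMod (n i))) := by
    intro i k
    have h1 := map_pow (MonoidHom.mulSingle (fun i => Multiplicative (ZMod (n i))) i)
      (Multiplicative.ofAdd (1 : ZMod (n i))) k
    rw [MonoidHom.mulSingle_apply, MonoidHom.mulSingle_apply] at h1
    rw [← h1, ← ofAdd_nsmul]
    simp
  have hXtop : ∀ x : G, b x ∈ B := by
    intro x
    have h1 : Abelianization.of x ∈ X.map Abelianization.of := by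
      have h2 : Abelianization.of x =
          ∏ i, a i ^ (Multiplicative.toAdd (e (Abelianization.of x) i)).val := by
        apply e.injective
        rw [map_prod]
        conv_lhs => rw [← Finset.univ_prod_mulSingle (e (Abelianization.of x))]
        apply Finset.prod_congr rfl
        intro i _
        rw [map_pow]
        simp only [a, MulEquiv.apply_symm_apply]
        rw [hpow, ZMod.natCast_zmod_val]
        rfl
      rw [h2]
      apply Subgroup.prod_mem
      intro i _
      apply Subgroup.pow_mem
      exact ⟨g i, hXg i, hg i⟩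
    obtain ⟨y, hy, hyx⟩ := h1
    have h3 : y⁻¹ * x ∈ commutator G := by
      rw [← hker, map_mul, map_inv, hyx, inv_mul_cancel]
    have h4 : x = y * (y⁻¹ * x) := by group
    have h5 : x ∈ X := by
      rw [h4]
      exact X.mul_mem hy (hXc _ h3)
    exact h5
  -- the homomorphism modulo `I • B`
  obtain ⟨J, hJ⟩ : ∃ J : Submodule (MonoidAlgebra ℤ (Abelianization G)) W,
      J = RingHom.ker (aug (Abelianization G)) • B := ⟨_, rfl⟩
  let φ : G →* Multiplicative (W ⧸ J) :=
    { toFun := fun x => Multiplicative.ofAdd (Submodule.Quotient.mk (b x))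
      map_one' := by
        rw [hb1]
        rfl
      map_mul' := by
        intro x y
        rw [← ofAdd_add, ← Submodule.Quotient.mk_add]
        congr 1
        rw [Submodule.Quotient.eq, hb]
        have : b x + MonoidAlgebra.single (Abelianization.of x) (1 : ℤ) • b y - (b x + b y) =
            (MonoidAlgebra.single (Abelianization.of x) (1 : ℤ) - 1 :
              MonoidAlgebra ℤ (Abelianization G)) • b y := by
          rw [sub_smul, one_smul]
          abel
        rw [this, hJ]
        exact Submodule.smul_mem_smul (single_sub_one_mem_ker _ _) (hXtop y) }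
  have hφ : ∀ x ∈ commutator G, b x ∈ J := by
    intro x hx
    have h1 : φ x = 1 := Abelianization.commutator_subset_ker φ hx
    have h2 : (Submodule.Quotient.mk (b x) : W ⧸ J) = 0 := h1
    exact (Submodule.Quotient.mk_eq_zero J).mp h2
  have hrel : ∀ j, ((c j : ℤ) : MonoidAlgebra ℤ (Abelianization G)) • fam j ∈
      RingHom.ker (aug (Abelianization G)) •
        Submodule.span (MonoidAlgebra ℤ (Abelianization G)) (Set.range fam) := by
    rw [← hB, ← hJ]
    rintro (i | h)
    · show (((n i : ℕ) : ℤ) : MonoidAlgebra ℤ (Abelianization G)) • b (g i) ∈ J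
      have h1 : g i ^ n i ∈ commutator G := by
        rw [← hker, map_pow, hg]
        apply e.injective
        rw [map_pow, map_one]
        simp only [a, MulEquiv.apply_symm_apply]
        rw [hpow, ZMod.natCast_self]
        simp
      have h2 : φ (g i ^ n i) = 1 := Abelianization.commutator_subset_ker φ h1
      rw [map_pow] at h2
      have h3 : (n i) • (Submodule.Quotient.mk (b (g i)) : W ⧸ J) = 0 := h2
      rw [← Submodule.Quotient.mk_smul, Submodule.Quotient.mk_eq_zero] at h3
      rw [Int.cast_natCast, Nat.cast_smul_eq_nsmul]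
      exact h3
    · show ((1 : ℤ) : MonoidAlgebra ℤ (Abelianization G)) • b (h : G) ∈ J
      rw [Int.cast_one, one_smul]
      exact hφ h h.2
  obtain ⟨δ, hδ1, hδ2⟩ := exists_annihilator (aug (Abelianization G)) fam c hrel
  refine ⟨δ, ?_, ?_⟩
  · rw [hδ1, Fintype.prod_sum_type]
    simp only [c, Sum.elim_inl, Sum.elim_inr, Finset.prod_const_one, mul_one]
    rw [Nat.card_congr e.toEquiv, Nat.card_pi]
    push_cast
    apply Finset.prod_congr rfl
    intro i _
    have : Nat.card (Multiplicative (ZMod (n i))) = n i := Nat.card_zmod (n i)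
    rw [this]
  · have hall : ∀ w ∈ Submodule.span (MonoidAlgebra ℤ (Abelianization G)) (Set.range fam),
        δ • w = 0 := by
      intro w hw
      induction hw using Submodule.span_induction with
      | mem w hw =>
        obtain ⟨j, rfl⟩ := hw
        exact hδ2 j
      | zero => exact smul_zero _
      | add u v _ _ hu hv => rw [smul_add, hu, hv, add_zero]
      | smul r u _ hu => rw [smul_comm, hu, smul_zero]
    intro x
    exact hall _ (hB ▸ hXtop x)

end grp

end Cfsg.Agent.Lib.Helper24.PIT
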