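import Mathlib
import Cfsg.Agent.Lib.Helper24.PIT2

/-!
# The principal ideal theorem: the transfer `G → G'/G''` is trivial
-/

set_option autoImplicit false
set_option linter.unusedSectionVars false

namespace Cfsg.Agent.Lib.Helper24.PIT

open scoped Classical

section fm

variable (A : Type*) [CommGroup A] (M : Type*) [AddCommGroup M]

/-- functions `A → M`, with `A` acting by translation -/
def FM := A → M

instance : AddCommGroup (FM A M) := inferInstanceAs (AddCommGroup (A → M))

/-- translation -/
def shift : A →* Module.End ℤ (FM A M) where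
  toFun a := AddMonoidHom.toIntLinearMap
    { toFun := fun f q => f (a⁻¹ * q)
      map_zero' := rfl
      map_add' := fun _ _ => rfl }
  map_one' := by
    apply LinearMap.ext
    intro f
    funext q
    show f (1⁻¹ * q) = f q
    rw [inv_one, one_mul]
  map_mul' a b := by
    apply LinearMap.ext
    intro f
    funext q
    show f ((a * b)⁻¹ * q) = f (b⁻¹ * (a⁻¹ * q))
    rw [mul_inv_rev, mul_assoc]

noncomputable instance : Module (MonoidAlgebra ℤ A) (FM A M) :=
  Module.compHom _ (MonoidAlgebra.lift ℤ (Module.End ℤ (FM A M)) A (shift A M)).toRingHom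

variable {A M}

theorem smul_def' (r : MonoidAlgebra ℤ A) (f : FM A M) :
    r • f = (MonoidAlgebra.lift ℤ (Module.End ℤ (FM A M)) A (shift A M)) r f := rfl

theorem single_smul_apply (a : A) (f : FM A M) (q : A) :
    (MonoidAlgebra.single a (1 : ℤ) • f) q = f (a⁻¹ * q) := by
  rw [smul_def', MonoidAlgebra.lift_single, one_smul]
  rfl

theorem lift_eq_sum [Fintype A] (r : MonoidAlgebra ℤ A) :
    (MonoidAlgebra.lift ℤ (Module.End ℤ (FM A M)) A (shift A M)) r =
      ∑ a, r.coeff a • shift A M a := by
  rw [MonoidAlgebra.lift_apply, Finsupp.sum_fintype]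
  intro a
  rw [zero_smul]

theorem fm_sum_apply {ι : Type*} (s : Finset ι) (F : ι → FM A M) (q : A) :
    (∑ a ∈ s, F a) q = ∑ a ∈ s, F a q :=
  Finset.sum_apply (M := fun _ : A => M) q s F

theorem smul_apply' [Fintype A] (r : MonoidAlgebra ℤ A) (f : FM A M) (q : A) :
    (r • f) q = ∑ a, r.coeff a • f (a⁻¹ * q) := by
  rw [smul_def', lift_eq_sum, LinearMap.sum_apply, fm_sum_apply]
  rfl

/-- package a function as an element of `FM` -/
def mkFM (f : A → M) : FM A M := f

theorem mkFM_apply (f : A → M) (q : A) : mkFM f q = f q := rfl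

end fm

section core

variable {G : Type*} [Group G] [Finite G] {M : Type*} [AddCommGroup M]

theorem sum_eq_zero [Fintype (Abelianization G)] (κ : Abelianization G → G → M)
    (hκ : ∀ q g h, κ q (g * h) = κ q g + κ ((Abelianization.of g)⁻¹ * q) h) (g : G) :
    ∑ q, κ q g = 0 := by
  let b : G → FM (Abelianization G) M × MonoidAlgebra ℤ (Abelianization G) := fun x =>
    (mkFM (fun q => κ q x),
      MonoidAlgebra.single (Abelianization.of x) (1 : ℤ) - 1)
  have hb : ∀ x y, b (x * y) = b x + MonoidAlgebra.single (Abelianization.of x) (1 : ℤ) • b y := by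
    intro x y
    apply Prod.ext
    · funext q
      show κ q (x * y) = κ q x + (MonoidAlgebra.single (Abelianization.of x) (1 : ℤ) •
        mkFM (fun q => κ q y)) q
      rw [single_smul_apply, hκ, mkFM_apply]
    · show MonoidAlgebra.single (Abelianization.of (x * y)) (1 : ℤ) - 1 =
        (MonoidAlgebra.single (Abelianization.of x) (1 : ℤ) - 1) +
          MonoidAlgebra.single (Abelianization.of x) (1 : ℤ) *
            (MonoidAlgebra.single (Abelianization.of y) (1 : ℤ) - 1)
      rw [mul_sub, MonoidAlgebra.single_mul_single, mul_one, mul_one, map_mul]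
      abel
  obtain ⟨δ, hδ1, hδ2⟩ := exists_delta b hb
  have hsurj : Function.Surjective (Abelianization.of : G →* Abelianization G) :=
    QuotientGroup.mk_surjective
  have h2 : ∀ a : Abelianization G, δ * MonoidAlgebra.single a (1 : ℤ) = δ := by
    intro a
    obtain ⟨x, rfl⟩ := hsurj a
    have h3 : δ * (MonoidAlgebra.single (Abelianization.of x) (1 : ℤ) - 1) = 0 :=
      congrArg Prod.snd (hδ2 x)
    rw [mul_sub, mul_one, sub_eq_zero] at h3
    exact h3
  have hconst : ∀ a : Abelianization G, δ.coeff a = δ.coeff 1 := by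
    intro a
    have h3 := congrArg (fun r : MonoidAlgebra ℤ (Abelianization G) => r.coeff 1) (h2 a⁻¹)
    simp only [MonoidAlgebra.coeff_mul_single_apply, inv_inv, one_mul, mul_one] at h3
    exact h3
  have haug : aug (Abelianization G) δ = ∑ a, δ.coeff a := by
    show (MonoidAlgebra.lift ℤ ℤ (Abelianization G) (1 : Abelianization G →* ℤ)) δ = _
    rw [MonoidAlgebra.lift_apply, Finsupp.sum_fintype]
    · simp
    · intro a
      rw [zero_smul]
  have hc1 : δ.coeff 1 = 1 := by
    rw [hδ1] at haug
    simp only [hconst, Finset.sum_const, Finset.card_univ, nsmul_eq_mul] at haug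
    rw [Nat.card_eq_fintype_card] at haug
    have hpos : ((Fintype.card (Abelianization G) : ℕ) : ℤ) ≠ 0 := by
      exact_mod_cast Fintype.card_ne_zero
    exact (mul_left_cancel₀ hpos (by rw [mul_one]; exact haug)).symm
  have h4 : (δ • mkFM (fun q => κ q g)) 1 = 0 := by
    have h5 : δ • mkFM (fun q => κ q g) = 0 := congrArg Prod.fst (hδ2 g)
    rw [h5]
    rfl
  rw [smul_apply'] at h4
  simp only [hconst, hc1, one_smul, mul_one] at h4
  rw [← h4]
  exact (Equiv.sum_comp (Equiv.inv (Abelianization G)) (fun q => κ q g)).symm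

end core

end Cfsg.Agent.Lib.Helper24.PIT
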