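import Mathlib
import Cfsg.Prelude.Def_Blocks
import Cfsg.Agent.Lib.Helper24.Knorr4
import Cfsg.Agent.Lib.Helper24.DefectZero
import Cfsg.Agent.Lib.Helper24.FongPSol
import Cfsg.Agent.Lib.Helper24.MaxPairChar

/-!
# Characters of defect zero of a quotient by a normal `p`-subgroup
-/

set_option autoImplicit false
set_option linter.unusedSectionVars false

namespace Cfsg.Agent.Lib.Helper24

open Cfsg Cfsg.Agent.Lib.Helper2 Cfsg.Agent.Lib.Helper6
open scoped ComplexConjugate Classical

attribute [local instance] irrFintype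

section

variable {X : Type*} [Group X] [Fintype X] {p : ℕ} {M : Ideal AlgInt}

theorem classInner_comp_surjective {A B : Type*} [Group A] [Group B] [Fintype A] [Fintype B]
    (φ : A →* B) (hφ : Function.Surjective φ) (a b : B → ℂ) :
    classInner (a ∘ φ) (b ∘ φ) = classInner a b := by
  have h1 := classInner_inflate (N := φ.ker)
    (a ∘ QuotientGroup.quotientKerEquivOfSurjective φ hφ)
    (b ∘ QuotientGroup.quotientKerEquivOfSurjective φ hφ)
  rw [classInner_comp_equiv'] at h1
  exact h1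

/-- the block of a character of defect zero -/
theorem defectZero_block (hM : IsPModular p M) (χ : IrrCharacter X)
    (h : (Nat.card X).factorization p ≤ (charDegree (χ : X → ℂ)).factorization p) :
    IsPBlock M ({χ} : Set (IrrCharacter X)) ∧ IsDefectGroup p M ({χ} : Set (IrrCharacter X)) ⊥ := by
  have : Fact p.Prime := ⟨hM.1⟩
  have hp : p.Prime := hM.1
  have h1 : ¬ p ∣ Nat.card X / charDegree (χ : X → ℂ) := by
    apply not_dvd_card_div_degree χ.2 (n := (Nat.card X).factorization p)
      (Nat.pow_succ_factorization_not_dvd Nat.card_pos.ne' hp)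
    exact (hp.pow_dvd_iff_le_factorization (charDegree_pos χ.2).ne').mpr h
  have hB : blockOf M (χ : X → ℂ) = {χ} := (Cfsg.Agent.S0914.result p M hM χ).mp h1
  have hblock : IsPBlock M ({χ} : Set (IrrCharacter X)) := ⟨χ, hB.symm⟩
  refine ⟨hblock, ?_⟩
  obtain ⟨D, hD⟩ := exists_isDefectGroup hM hblock
  have h2 := IsDefectGroup.card_eq hM hblock hD
  have h3 : blockDefect p ({χ} : Set (IrrCharacter X)) = 0 := by
    unfold blockDefect
    rw [Set.image_singleton, csInf_singleton]
    omega
  rw [h3, pow_zero] at h2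
  rw [← (Subgroup.card_eq_one.mp h2)]
  exact hD

/-- constituents of a character of defect zero on a normal subgroup have defect zero -/
theorem defectZero_constituent (hM : IsPModular p M) (χ : IrrCharacter X)
    (h : (Nat.card X).factorization p ≤ (charDegree (χ : X → ℂ)).factorization p)
    (N : Subgroup X) [N.Normal] (θ : IrrCharacter N)
    (hθ : classInner (fun n : N => (χ : X → ℂ) n) (θ : N → ℂ) ≠ 0) :
    (Nat.card N).factorization p ≤ (charDegree (θ : N → ℂ)).factorization p := by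
  have := IsPModular.isPrime hM
  have hp : p.Prime := hM.1
  obtain ⟨hb, hD⟩ := defectZero_block hM χ h
  have hc : IsPBlock M (blockOf M (θ : N → ℂ)) := ⟨θ, rfl⟩
  have h1 := pow_blockDefect_le_of_cov hM hb hc
    ⟨χ, Set.mem_singleton χ, θ, mem_blockOf_self θ, hθ⟩ hD
  rw [bot_inf_eq, Subgroup.card_bot] at h1
  have h2 : blockDefect p (blockOf M (θ : N → ℂ)) = 0 := by
    by_contra hne
    have := Nat.one_lt_pow hne hp.one_lt
    omega
  have h3 : sInf ((fun χ : IrrCharacter N =>
      (charDegree (χ : N → ℂ)).factorization p) '' blockOf M (θ : N → ℂ)) ≤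
      (charDegree (θ : N → ℂ)).factorization p := Nat.sInf_le ⟨θ, mem_blockOf_self θ, rfl⟩
  unfold blockDefect at h2
  omega

theorem exists_deflate_defectZero {Q : Subgroup X} [Q.Normal] (χ : IrrCharacter X)
    (hker : ∀ q ∈ Q, (χ : X → ℂ) q = (χ : X → ℂ) 1)
    (hdeg : (charDegree (χ : X → ℂ)).factorization p + (Nat.card Q).factorization p =
      (Nat.card X).factorization p) :
    ∃ χb : IrrCharacter (X ⧸ Q), (∀ g : X, (χb : X ⧸ Q → ℂ) (QuotientGroup.mk g) = (χ : X → ℂ) g) ∧
      (Nat.card (X ⧸ Q)).factorization p ≤ (charDegree (χb : X ⧸ Q → ℂ)).factorization p := by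
  obtain ⟨ψ, hψ, h⟩ := IsIrrCharacter.deflate Q χ.2 hker
  refine ⟨⟨ψ, hψ⟩, h, ?_⟩
  have h1 : charDegree ψ = charDegree (χ : X → ℂ) := by
    unfold charDegree
    rw [← h 1]
    rfl
  have h2 := Subgroup.card_eq_card_quotient_mul_card_subgroup Q
  have h3 : (Nat.card X).factorization p =
      (Nat.card (X ⧸ Q)).factorization p + (Nat.card Q).factorization p := by
    rw [h2, Nat.factorization_mul Nat.card_pos.ne' Nat.card_pos.ne']
    rfl
  show _ ≤ (charDegree ψ).factorization p
  rw [h1]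
  omega

/-- if `X ⧸ Q` has a character of defect zero then `Q` contains all normal `p`-subgroups -/
theorem normal_pSubgroup_le_of_relDefectZero (hM : IsPModular p M) {Q : Subgroup X} [Q.Normal]
    (χ : IrrCharacter X) (hker : ∀ q ∈ Q, (χ : X → ℂ) q = (χ : X → ℂ) 1)
    (hdeg : (charDegree (χ : X → ℂ)).factorization p + (Nat.card Q).factorization p =
      (Nat.card X).factorization p) {R : Subgroup X} (hRn : R.Normal) (hR : IsPGroup p R) :
    R ≤ Q := by
  have : Fact p.Prime := ⟨hM.1⟩
  obtain ⟨χb, -, h⟩ := exists_deflate_defectZero χ hker hdeg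
  obtain ⟨hb, hD⟩ := defectZero_block hM χb h
  have hn : (R.map (QuotientGroup.mk' Q)).Normal :=
    hRn.map _ (QuotientGroup.mk'_surjective Q)
  have h1 := normal_le_defectGroup hM hb hD hn (hR.map _)
  intro r hr
  have h2 : QuotientGroup.mk' Q r ∈ (⊥ : Subgroup (X ⧸ Q)) := h1 ⟨r, hr, rfl⟩
  rw [Subgroup.mem_bot] at h2
  exact (QuotientGroup.eq_one_iff r).mp h2

theorem exists_constituent_relDefectZero (hM : IsPModular p M) {Q : Subgroup X} [Q.Normal]
    (χ : IrrCharacter X) (hker : ∀ q ∈ Q, (χ : X → ℂ) q = (χ : X → ℂ) 1)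
    (hdeg : (charDegree (χ : X → ℂ)).factorization p + (Nat.card Q).factorization p =
      (Nat.card X).factorization p) {C : Type*} [Group C] [Fintype C] (ι : C →* X)
    (hn : ι.range.Normal) :
    ∃ θ : IrrCharacter C, classInner ((χ : X → ℂ) ∘ ι) (θ : C → ℂ) ≠ 0 ∧
      (∀ c, ι c ∈ Q → (θ : C → ℂ) c = (θ : C → ℂ) 1) ∧
      (Nat.card C).factorization p ≤ (charDegree (θ : C → ℂ)).factorization p +
        (Nat.card (Q.comap ι)).factorization p := by
  obtain ⟨χb, hχb, h⟩ := exists_deflate_defectZero χ hker hdeg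
  obtain ⟨f, hf⟩ : ∃ f : C →* X ⧸ Q, f = (QuotientGroup.mk' Q).comp ι := ⟨_, rfl⟩
  have hfι : ∀ c, f c = QuotientGroup.mk (ι c) := fun c => by rw [hf]; rfl
  obtain ⟨Nb, hNb⟩ : ∃ Nb : Subgroup (X ⧸ Q), Nb = f.range := ⟨_, rfl⟩
  have hfn : Nb.Normal := by
    rw [hNb, hf, ← MonoidHom.map_range]
    exact hn.map _ (QuotientGroup.mk'_surjective Q)
  obtain ⟨φ, hφdef⟩ : ∃ φ : C →* Nb, ∀ c, (φ c : X ⧸ Q) = f c :=
    ⟨f.codRestrict Nb (fun c => hNb ▸ ⟨c, rfl⟩), fun c => rfl⟩
  have hφ : Function.Surjective φ := by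
    rintro ⟨y, hy⟩
    rw [hNb] at hy
    obtain ⟨c, rfl⟩ := hy
    exact ⟨c, Subtype.ext (hφdef c)⟩
  obtain ⟨θb, hθb⟩ := exists_constituent
    (IsCharacter.restrict Nb (IsIrrCharacter.isCharacter χb.2))
    (by exact irr_one_ne_zero χb.2)
  have h1 := defectZero_constituent hM χb h Nb θb hθb
  have hirr : IsIrrCharacter C (fun c => (θb : Nb → ℂ) (φ c)) :=
    IsIrrCharacter.inflate φ hφ θb.2
  refine ⟨⟨_, hirr⟩, ?_, ?_, ?_⟩
  · have e1 : (χ : X → ℂ) ∘ ι = (fun n : Nb => (χb : X ⧸ Q → ℂ) n) ∘ φ := by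
      ext c
      rw [Function.comp_apply, Function.comp_apply, ← hχb, hφdef, hfι]
    rw [e1]
    have := classInner_comp_surjective φ hφ
      (fun n : Nb => (χb : X ⧸ Q → ℂ) n) (θb : Nb → ℂ)
    rw [← this] at hθb
    exact hθb
  · intro c hc
    have e2 : φ c = 1 := by
      apply Subtype.ext
      rw [hφdef, hfι]
      exact (QuotientGroup.eq_one_iff (ι c)).mpr hc
    show (θb : Nb → ℂ) (φ c) = (θb : Nb → ℂ) (φ 1)
    rw [e2, map_one]
  · have e3 : charDegree (fun c => (θb : Nb → ℂ) (φ c)) = charDegree (θb : Nb → ℂ) := by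
      unfold charDegree
      simp only [map_one]
    have e4 : φ.ker = Q.comap ι := by
      ext c
      rw [MonoidHom.mem_ker, Subgroup.mem_comap]
      constructor
      · intro hc
        have := congrArg Subtype.val hc
        rw [hφdef, hfι] at this
        exact (QuotientGroup.eq_one_iff (ι c)).mp this
      · intro hc
        apply Subtype.ext
        rw [hφdef, hfι]
        exact (QuotientGroup.eq_one_iff (ι c)).mpr hc
    have e5 : Nat.card C = Nat.card Nb * Nat.card (Q.comap ι) := by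
      rw [Subgroup.card_eq_card_quotient_mul_card_subgroup φ.ker,
        Nat.card_congr (QuotientGroup.quotientKerEquivOfSurjective φ hφ).toEquiv, e4]
    show _ ≤ (charDegree (fun c => (θb : Nb → ℂ) (φ c))).factorization p + _
    rw [e3, e5, Nat.factorization_mul Nat.card_pos.ne' Nat.card_pos.ne']
    show (Nat.card Nb).factorization p + (Nat.card (Q.comap ι)).factorization p ≤ _
    omega

end

end Cfsg.Agent.Lib.Helper24
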